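import Mathlib

set_option autoImplicit false

/-! Words in two involutions; dihedral computations. -/

namespace Cfsg.Agent.H25

variable {G : Type*} [Group G]

theorem inv_of_sq_one {a : G} (ha : a * a = 1) : a⁻¹ = a := inv_eq_of_mul_eq_one_left ha

theorem alt_step {a b : G} (hb2 : b * b = 1) (j : ℕ) :
    b * (a * (b * a) ^ j) * b⁻¹ = b * (a * b) ^ (j + 1) := by
  have key : (b * a) ^ j = b * (a * b) ^ j * b⁻¹ := by
    have := (SemiconjBy.pow_right (show SemiconjBy b (a * b) (b * a) by simp [SemiconjBy, mul_assoc]) j).eq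
    rw [eq_mul_inv_iff_mul_eq]
    exact this.symm
  rw [key, inv_of_sq_one hb2, pow_succ']
  simp only [mul_assoc, hb2, mul_one]

/-- Alternating words in two members of a conjugation-invariant set stay in the set. -/
theorem alt_word_mem {D : Set G} (hconj : ∀ g : G, ∀ d ∈ D, g * d * g⁻¹ ∈ D) {a b : G}
    (ha2 : a * a = 1) (hb2 : b * b = 1)
    (ha : a ∈ D) (hb : b ∈ D) (j : ℕ) :
    b * (a * b) ^ j ∈ D ∧ a * (b * a) ^ j ∈ D := by
  induction j with
  | zero => simpa using ⟨hb, ha⟩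
  | succ j ih =>
    obtain ⟨h1, h2⟩ := ih
    constructor
    · have := hconj b _ h2
      rwa [alt_step hb2] at this
    · have := hconj a _ h1
      rwa [alt_step ha2] at this

theorem mul_alt_word {a b : G} (ha2 : a * a = 1) (j : ℕ) :
    a * (a * b) ^ (j + 1) = b * (a * b) ^ j := by
  rw [pow_succ', ← mul_assoc, ← mul_assoc, ha2, one_mul]

/-- `a` inverts `a b`, for involutions. -/
theorem conj_pow_eq {a b : G} (ha2 : a * a = 1) (hb2 : b * b = 1) (j : ℕ) :
    a * (a * b) ^ j * a⁻¹ = ((a * b) ^ j)⁻¹ := by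
  have h1 : a * (a * b) * a⁻¹ = (a * b)⁻¹ := by
    rw [inv_of_sq_one ha2, mul_inv_rev, inv_of_sq_one ha2, inv_of_sq_one hb2, ← mul_assoc, ha2, one_mul]
  have h2 : a * (a * b) ^ j * a⁻¹ = (a * (a * b) * a⁻¹) ^ j := (conj_pow).symm
  rw [h2, h1, inv_pow]

end Cfsg.Agent.H25
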