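import Cfsg.Agent.Lib.H13.Extra
set_option autoImplicit false
set_option linter.style.haveILetI false

/-! Large extraspecial `2`-subgroups, elementwise: the basic lemma. -/

namespace Cfsg.Agent.H25

section E
variable {G : Type*} [Group G]

/-- Elementwise form of the extraspecial hypotheses. -/
structure LE (Q : Subgroup G) (z : G) : Prop where
  z_mem : z ∈ Q
  z_ne : z ≠ 1
  z_sq : z * z = 1
  z_comm : ∀ a ∈ Q, a * z = z * a
  comm : ∀ a ∈ Q, ∀ b ∈ Q, a * b = b * a ∨ a * b = z * (b * a)
  sq : ∀ a ∈ Q, a * a = 1 ∨ a * a = z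
  cen : ∀ g : G, (∀ a ∈ Q, g * a = a * g) → g = 1 ∨ g = z
  norm : ∀ g : G, g * z = z * g → ∀ a ∈ Q, g * a * g⁻¹ ∈ Q

variable {Q Q' : Subgroup G} {z z' : G}

theorem LE.conj (h : LE Q z) (g : G) (hQ' : ∀ x, x ∈ Q' ↔ g⁻¹ * x * g ∈ Q) : LE Q' (g * z * g⁻¹) := by
  have hm : ∀ a ∈ Q, g * a * g⁻¹ ∈ Q' := by
    intro a ha
    rw [hQ']
    have : g⁻¹ * (g * a * g⁻¹) * g = a := by group
    rwa [this]
  have hm' : ∀ x ∈ Q', ∃ a ∈ Q, x = g * a * g⁻¹ := by
    intro x hx
    refine ⟨_, (hQ' x).1 hx, by group⟩
  refine ⟨hm _ h.z_mem, ?_, ?_, ?_, ?_, ?_, ?_, ?_⟩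
  · intro e
    apply h.z_ne
    have : z = g⁻¹ * (g * z * g⁻¹) * g := by group
    rw [this, e]
    group
  · calc g * z * g⁻¹ * (g * z * g⁻¹) = g * (z * z) * g⁻¹ := by group
      _ = 1 := by rw [h.z_sq]; group
  · intro x hx
    obtain ⟨a, ha, rfl⟩ := hm' x hx
    calc g * a * g⁻¹ * (g * z * g⁻¹) = g * (a * z) * g⁻¹ := by group
      _ = g * (z * a) * g⁻¹ := by rw [h.z_comm a ha]
      _ = _ := by group
  · intro x hx y hy
    obtain ⟨a, ha, rfl⟩ := hm' x hx
    obtain ⟨b, hb, rfl⟩ := hm' y hy
    rcases h.comm a ha b hb with e | e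
    · left
      calc g * a * g⁻¹ * (g * b * g⁻¹) = g * (a * b) * g⁻¹ := by group
        _ = g * (b * a) * g⁻¹ := by rw [e]
        _ = _ := by group
    · right
      calc g * a * g⁻¹ * (g * b * g⁻¹) = g * (a * b) * g⁻¹ := by group
        _ = g * (z * (b * a)) * g⁻¹ := by rw [e]
        _ = _ := by group
  · intro x hx
    obtain ⟨a, ha, rfl⟩ := hm' x hx
    rcases h.sq a ha with e | e
    · left
      calc g * a * g⁻¹ * (g * a * g⁻¹) = g * (a * a) * g⁻¹ := by group
        _ = 1 := by rw [e]; group
    · right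
      calc g * a * g⁻¹ * (g * a * g⁻¹) = g * (a * a) * g⁻¹ := by group
        _ = _ := by rw [e]
  · intro c hc
    have h1 : ∀ a ∈ Q, (g⁻¹ * c * g) * a = a * (g⁻¹ * c * g) := by
      intro a ha
      have h2 := hc _ (hm a ha)
      calc (g⁻¹ * c * g) * a = g⁻¹ * (c * (g * a * g⁻¹)) * g := by group
        _ = g⁻¹ * ((g * a * g⁻¹) * c) * g := by rw [h2]
        _ = _ := by group
    rcases h.cen _ h1 with e | e
    · left
      have : c = g * (g⁻¹ * c * g) * g⁻¹ := by group
      rw [this, e]
      group
    · right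
      have : c = g * (g⁻¹ * c * g) * g⁻¹ := by group
      rw [this, e]
  · intro c hc x hx
    obtain ⟨a, ha, rfl⟩ := hm' x hx
    have h1 : (g⁻¹ * c * g) * z = z * (g⁻¹ * c * g) := by
      have h3 : c * (g * z * g⁻¹) * c⁻¹ = g * z * g⁻¹ := by
        rw [hc]
        group
      calc (g⁻¹ * c * g) * z = g⁻¹ * (c * (g * z * g⁻¹)) * g := by group
        _ = g⁻¹ * ((g * z * g⁻¹) * c) * g := by rw [hc]
        _ = _ := by group
    have h2 := h.norm _ h1 a ha
    have h3 := hm _ h2
    have e : g * (g⁻¹ * c * g * a * (g⁻¹ * c * g)⁻¹) * g⁻¹ = c * (g * a * g⁻¹) * c⁻¹ := by group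
    rwa [e] at h3

theorem LE.inv_mem_cases (h : LE Q z) {a : G} (ha : a ∈ Q) : a⁻¹ ∈ Q := Q.inv_mem ha

/-- A noncentral element of `Q`. -/
theorem LE.exists_toggle (h : LE Q z) {w : G} (hw : w ∈ Q) (h1 : w ≠ 1) (hz : w ≠ z) :
    ∃ q ∈ Q, q * w = z * (w * q) := by
  by_contra hcon
  have hall : ∀ a ∈ Q, w * a = a * w := by
    intro a ha
    rcases h.comm a ha w hw with e | e
    · exact e.symm
    · exact absurd ⟨a, ha, e⟩ hcon
  rcases h.cen w hall with e | e
  · exact h1 e
  · exact hz e

/-- The double-perp lemma. -/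
theorem LE.perp (h : LE Q z) {w a : G} (hw : w ∈ Q) (ha : a ∈ Q)
    (hU : ∀ u ∈ Q, u * w = w * u → a * u = u * a) (hw2 : w * w = 1) :
    a = 1 ∨ a = z ∨ a = w ∨ a = z * w := by
  by_cases hc : ∀ x ∈ Q, a * x = x * a
  · rcases h.cen a hc with e | e
    · exact Or.inl e
    · exact Or.inr (Or.inl e)
  push Not at hc
  obtain ⟨q, hq, hqa⟩ := hc
  have hqa' : q * a = z * (a * q) := by
    rcases h.comm q hq a ha with e | e
    · exact absurd e.symm hqa
    · exact e
  have hqw : q * w = z * (w * q) := by
    rcases h.comm q hq w hw with e | e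
    · exact absurd (hU q hq e) hqa
    · exact e
  have hzc : ∀ x ∈ Q, x * z = z * x := h.z_comm
  have key : ∀ x ∈ Q, (a * w) * x = x * (a * w) := by
    intro x hx
    rcases h.comm x hx w hw with e | e
    · have := hU x hx e
      calc a * w * x = a * (w * x) := by group
        _ = a * (x * w) := by rw [e]
        _ = (a * x) * w := by group
        _ = (x * a) * w := by rw [this]
        _ = x * (a * w) := by group
    · -- `x q` centralizes `w`
      have e1 : (x * q) * w = w * (x * q) := by
        calc (x * q) * w = x * (q * w) := by group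
          _ = x * (z * (w * q)) := by rw [hqw]
          _ = (x * z) * (w * q) := by group
          _ = (z * x) * (w * q) := by rw [hzc x hx]
          _ = z * ((x * w) * q) := by group
          _ = z * ((z * (w * x)) * q) := by rw [e]
          _ = (z * z) * (w * (x * q)) := by group
          _ = w * (x * q) := by rw [h.z_sq, one_mul]
      have e2 := hU _ (Q.mul_mem hx hq) e1
      have e3 : x * a = z * (a * x) := by
        have e4 : (a * x) * q = z * (x * a) * q := by
          calc (a * x) * q = a * (x * q) := by group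
            _ = (x * q) * a := e2
            _ = x * (q * a) := by group
            _ = x * (z * (a * q)) := by rw [hqa']
            _ = (x * z) * (a * q) := by group
            _ = (z * x) * (a * q) := by rw [hzc x hx]
            _ = z * (x * a) * q := by group
        have e5 := mul_right_cancel e4
        rw [e5, ← mul_assoc, h.z_sq, one_mul]
      have hza : a * z = z * a := hzc a ha
      calc a * w * x = a * (w * x) := by group
        _ = a * (z * (x * w)) := by
          have : w * x = z * (x * w) := by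
            rw [e, ← mul_assoc, h.z_sq, one_mul]
          rw [this]
        _ = (a * z) * (x * w) := by group
        _ = (z * a) * (x * w) := by rw [hza]
        _ = z * (a * x) * w := by group
        _ = (x * a) * w := by rw [e3]
        _ = x * (a * w) := by group
  rcases h.cen _ key with e | e
  · right; right; left
    have : a = a * w * w := by rw [mul_assoc, hw2, mul_one]
    rw [this, e, one_mul]
  · right; right; right
    have : a = a * w * w := by rw [mul_assoc, hw2, mul_one]
    rw [this, e]

end E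

end Cfsg.Agent.H25
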