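import Cfsg.Agent.Lib.H25.LE1
set_option autoImplicit false
set_option linter.style.haveILetI false

/-! Large extraspecial `2`-subgroups: `z` lies in `Q^g` when `z^g` lies in `Q`. -/

namespace Cfsg.Agent.H25

section E
variable {G : Type*} [Group G] {Q Q' : Subgroup G} {z z' : G}

/-- Three elements of `Q` reversed. -/
theorem LE.rev3 (h : LE Q z) {a b c : G} (ha : a ∈ Q) (hb : b ∈ Q) (hc : c ∈ Q) :
    ∃ e : G, (e = 1 ∨ e = z) ∧ a * b * c = e * (c * b * a) := by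
  have hsgn : ∀ x ∈ Q, ∀ y ∈ Q, ∃ e : G, (e = 1 ∨ e = z) ∧ x * y = e * (y * x) := by
    intro x hx y hy
    rcases h.comm x hx y hy with e | e
    · exact ⟨1, Or.inl rfl, by rw [e, one_mul]⟩
    · exact ⟨z, Or.inr rfl, e⟩
  have hcen : ∀ e : G, (e = 1 ∨ e = z) → ∀ x ∈ Q, x * e = e * x := by
    rintro e (rfl | rfl) x hx
    · group
    · exact h.z_comm x hx
  have hmul : ∀ e f : G, (e = 1 ∨ e = z) → (f = 1 ∨ f = z) → (e * f = 1 ∨ e * f = z) := by
    rintro e f (rfl | rfl) (rfl | rfl)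
    · left; group
    · right; group
    · right; group
    · left; exact h.z_sq
  obtain ⟨e1, h1, e1'⟩ := hsgn a ha b hb
  obtain ⟨e2, h2, e2'⟩ := hsgn a ha c hc
  obtain ⟨e3, h3, e3'⟩ := hsgn b hb c hc
  refine ⟨e1 * e2 * e3, hmul _ _ (hmul _ _ h1 h2) h3, ?_⟩
  calc a * b * c = e1 * (b * a) * c := by rw [e1']
    _ = e1 * b * (a * c) := by group
    _ = e1 * b * (e2 * (c * a)) := by rw [e2']
    _ = e1 * (b * e2) * (c * a) := by group
    _ = e1 * (e2 * b) * (c * a) := by rw [hcen e2 h2 b hb]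
    _ = e1 * e2 * ((b * c) * a) := by group
    _ = e1 * e2 * ((e3 * (c * b)) * a) := by rw [e3']
    _ = e1 * e2 * e3 * (c * b * a) := by group

variable (hQ : LE Q z) (hQ' : LE Q' z') (hz' : z' ∈ Q) (hne : z' ≠ z)
  (htr : ∀ h : G, h * z * h⁻¹ = z' → ∀ a ∈ Q, h * a * h⁻¹ ∈ Q')

include hQ hQ' hz' hne htr in
/-- The main lemma: `z` lies in `Q^g`. -/
theorem LE.z_mem_of_pair [Finite G] (hcard : 8 < Nat.card Q) : z ∈ Q' := by
  classical
  by_contra hz
  have hz'1 : z' ≠ 1 := hQ'.z_ne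
  have hz'2 : z' * z' = 1 := hQ'.z_sq
  have hzz : z * z = 1 := hQ.z_sq
  have hzc : ∀ a ∈ Q, a * z = z * a := hQ.z_comm
  have hz'c : ∀ y ∈ Q', y * z' = z' * y := hQ'.z_comm
  have hzz' : z * z' = z' * z := (hzc z' hz').symm
  -- `A = Q ∩ Q'`
  have hA : ∀ a ∈ Q, a ∈ Q' → a = 1 ∨ a = z' := by
    intro a ha ha'
    have hcomm : ∀ u ∈ Q, u * z' = z' * u → a * u = u * a := by
      intro u hu huz
      rcases hQ.comm a ha u hu with e | e
      · exact e
      · exfalso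
        apply hz
        have h1 : u * a⁻¹ * u⁻¹ ∈ Q' := hQ'.norm u huz _ (Q'.inv_mem ha')
        have h2 : z = a * (u * a⁻¹ * u⁻¹) := by
          have : a * (u * a⁻¹ * u⁻¹) = (a * u) * (u * a)⁻¹ := by group
          rw [this, e]
          group
        rw [h2]
        exact Q'.mul_mem ha' h1
    rcases hQ.perp hz' ha hcomm hz'2 with e | e | e | e
    · exact Or.inl e
    · exact absurd (e ▸ ha') hz
    · exact Or.inr e
    · exfalso
      apply hz
      have : z = a * z' := by rw [e, mul_assoc, hz'2, mul_one]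
      rw [this]
      exact Q'.mul_mem ha' hQ'.z_mem
  -- the commutators of `Y` and `U`
  have hYU : ∀ y ∈ Q', y * z = z * y → ∀ u ∈ Q, u * z' = z' * u → y * u * y⁻¹ * u⁻¹ = 1 ∨ y * u * y⁻¹ * u⁻¹ = z' := by
    intro y hy hyz u hu huz
    apply hA
    · exact Q.mul_mem (hQ.norm y hyz u hu) (Q.inv_mem hu)
    · have h1 : u * y⁻¹ * u⁻¹ ∈ Q' := hQ'.norm u huz _ (Q'.inv_mem hy)
      have : y * u * y⁻¹ * u⁻¹ = y * (u * y⁻¹ * u⁻¹) := by group
      rw [this]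
      exact Q'.mul_mem hy h1
  -- the dichotomy
  have hA' : ∀ y ∈ Q', (y * z * y⁻¹ * z⁻¹ = 1 ∨ y * z * y⁻¹ * z⁻¹ = z') → y * z = z * y := by
    intro y hy hc
    rcases hc with e | e
    · have : y * z * y⁻¹ = z := mul_inv_eq_one.1 e
      rw [mul_inv_eq_iff_eq_mul] at this
      exact this
    · exfalso
      have hyz : y * z * y⁻¹ = z * z' := by
        have h2 : y * z * y⁻¹ = (y * z * y⁻¹ * z⁻¹) * z := by group
        rw [h2, e, hzz']
      obtain ⟨q, hq, hqe⟩ := hQ.exists_toggle hz' hz'1 hne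
      -- `h = q y q⁻¹` swaps `z` and `z'`
      have hqz : q * z * q⁻¹ = z := by
        rw [hzc q hq]
        group
      have hqw : q * z' * q⁻¹ = z * z' := by
        rw [hqe]
        group
      have hqiz : q⁻¹ * z * q = z := by
        have := hzc q hq
        calc q⁻¹ * z * q = q⁻¹ * (z * q) := by group
          _ = q⁻¹ * (q * z) := by rw [this]
          _ = z := by group
      have hqiw : q⁻¹ * z' * q = z * z' := by
        have h1 : z' * q = z * (q * z') := by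
          rw [hqe, ← mul_assoc, hzz, one_mul]
        calc q⁻¹ * z' * q = q⁻¹ * (z' * q) := by group
          _ = q⁻¹ * (z * (q * z')) := by rw [h1]
          _ = q⁻¹ * ((z * q) * z') := by group
          _ = q⁻¹ * ((q * z) * z') := by rw [hzc q hq]
          _ = z * z' := by group
      have hyw : y * z' * y⁻¹ = z' := by
        rw [hz'c y hy]
        group
      set h := q * y * q⁻¹ with hh
      have h1 : h * z * h⁻¹ = z' := by
        calc h * z * h⁻¹ = q * (y * (q⁻¹ * z * q) * y⁻¹) * q⁻¹ := by rw [hh]; group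
          _ = q * (y * z * y⁻¹) * q⁻¹ := by rw [hqiz]
          _ = q * (z * z') * q⁻¹ := by rw [hyz]
          _ = (q * z * q⁻¹) * (q * z' * q⁻¹) := by group
          _ = z * (z * z') := by rw [hqz, hqw]
          _ = z' := by rw [← mul_assoc, hzz, one_mul]
      have h2 : h * z' * h⁻¹ = z := by
        calc h * z' * h⁻¹ = q * (y * (q⁻¹ * z' * q) * y⁻¹) * q⁻¹ := by rw [hh]; group
          _ = q * (y * (z * z') * y⁻¹) * q⁻¹ := by rw [hqiw]
          _ = q * ((y * z * y⁻¹) * (y * z' * y⁻¹)) * q⁻¹ := by group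
          _ = q * ((z * z') * z') * q⁻¹ := by rw [hyz, hyw]
          _ = q * z * q⁻¹ := by rw [mul_assoc z, hz'2, mul_one]
          _ = z := hqz
      have h3 := htr h h1 z' hz'
      rw [h2] at h3
      exact hz h3
  -- Step E
  have hzN : ∀ a ∈ Q', z * a * z⁻¹ ∈ Q' := hQ'.norm z hzz'
  have hE : ∀ x ∈ Q', x * z * x⁻¹ * z⁻¹ ∈ Q' ∧ (x * z * x⁻¹ * z⁻¹) * z = z * (x * z * x⁻¹ * z⁻¹) := by
    intro x hx
    have hb : x * z * x⁻¹ * z⁻¹ ∈ Q' := by
      have : x * z * x⁻¹ * z⁻¹ = x * (z * x⁻¹ * z⁻¹) := by group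
      rw [this]
      exact Q'.mul_mem hx (hzN _ (Q'.inv_mem hx))
    refine ⟨hb, hA' _ hb ?_⟩
    set b := x * z * x⁻¹ * z⁻¹ with hbdef
    have hzi : z⁻¹ = z := inv_eq_of_mul_eq_one_left hzz
    have hinv : z * b⁻¹ * z⁻¹ = b := by
      rw [hbdef, hzi]
      have e1 : (x * z * x⁻¹ * z)⁻¹ = z⁻¹ * x * z⁻¹ * x⁻¹ := by group
      rw [e1, hzi]
      calc z * (z * x * z * x⁻¹) * z = (z * z) * x * z * x⁻¹ * z := by group
        _ = x * z * x⁻¹ * z := by rw [hzz]; group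
    have e2 : b * z * b⁻¹ * z⁻¹ = b * b := by
      calc b * z * b⁻¹ * z⁻¹ = b * (z * b⁻¹ * z⁻¹) := by group
        _ = b * b := by rw [hinv]
    rw [e2]
    exact hQ'.sq b hb
  -- Step F
  have hF : ∀ x ∈ Q', ∀ u ∈ Q, u * z' = z' * u → (x * u * x⁻¹ * u⁻¹) * z = z * (x * u * x⁻¹ * u⁻¹) := by
    intro x hx u hu huz
    have huzz : u * z = z * u := hzc u hu
    have huN : ∀ a ∈ Q', u * a * u⁻¹ ∈ Q' := hQ'.norm u huz
    set c := x * u * x⁻¹ * u⁻¹ with hc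
    have hcQ : c ∈ Q' := by
      have : c = x * (u * x⁻¹ * u⁻¹) := by rw [hc]; group
      rw [this]
      exact Q'.mul_mem hx (huN _ (Q'.inv_mem hx))
    refine hA' c hcQ ?_
    set q₁ := u * x⁻¹ * u⁻¹ with hq₁
    set r := z * (u * x * u⁻¹) * z⁻¹ with hr
    set s := z * x⁻¹ * z⁻¹ with hs
    have hq₁Q : q₁ ∈ Q' := huN _ (Q'.inv_mem hx)
    have hrQ : r ∈ Q' := hzN _ (huN _ hx)
    have hsQ : s ∈ Q' := hzN _ (Q'.inv_mem hx)
    have e1 : c * z * c⁻¹ * z⁻¹ = x * (q₁ * r * s) := by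
      rw [hc, hq₁, hr, hs]
      group
    obtain ⟨e, he, he'⟩ := hQ'.rev3 hq₁Q hrQ hsQ
    obtain ⟨hbQ, hbz⟩ := hE x hx
    set b := x * z * x⁻¹ * z⁻¹ with hb
    have hbu := hYU b hbQ hbz u hu huz
    have e2 : b * u * b⁻¹ * u⁻¹ = x * (s * r * q₁) := by
      have hr' : r = u * (z * x * z⁻¹) * u⁻¹ := by
        calc r = (z * u) * x * (z * u)⁻¹ := by rw [hr]; group
          _ = (u * z) * x * (u * z)⁻¹ := by rw [huzz]
          _ = _ := by group
      rw [hr', hb, hq₁, hs]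
      group
    have hK : ∀ a ∈ Q', a * e = e * a := by
      intro a ha
      rcases he with rfl | rfl
      · group
      · exact hz'c a ha
    rw [e1, he']
    have e3 : x * (e * (s * r * q₁)) = e * (x * (s * r * q₁)) := by
      calc x * (e * (s * r * q₁)) = (x * e) * (s * r * q₁) := by group
        _ = (e * x) * (s * r * q₁) := by rw [hK x hx]
        _ = _ := by group
    rw [e3, ← e2]
    rcases he with rfl | rfl <;> rcases hbu with h5 | h5 <;> rw [h5]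
    · left; group
    · right; group
    · right; group
    · left; exact hz'2
  -- Step G
  have hK1 : ∀ e : G, (e = 1 ∨ e = z') → ∀ a ∈ Q', a * e = e * a := by
    rintro e (rfl | rfl) a ha
    · group
    · exact hz'c a ha
  have hKm : ∀ e f : G, (e = 1 ∨ e = z') → (f = 1 ∨ f = z') → (e * f = 1 ∨ e * f = z') := by
    rintro e f (rfl | rfl) (rfl | rfl)
    · left; group
    · right; group
    · right; group
    · left; exact hz'2
  have hKi : ∀ e : G, (e = 1 ∨ e = z') → e⁻¹ = e := by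
    rintro e (rfl | rfl)
    · group
    · exact inv_eq_of_mul_eq_one_left hz'2
  obtain ⟨u₁, hu₁, hu₁z, u₂, hu₂, hu₂z, hu⟩ : ∃ u₁ ∈ Q, u₁ * z' = z' * u₁ ∧ ∃ u₂ ∈ Q, u₂ * z' = z' * u₂ ∧ u₁ * u₂ = z * (u₂ * u₁) := by
    by_contra hno
    push Not at hno
    have hUU : ∀ u ∈ Q, u * z' = z' * u → u = 1 ∨ u = z ∨ u = z' ∨ u = z * z' := by
      intro u hu huz
      refine hQ.perp hz' hu (fun v hv hvz => ?_) hz'2
      rcases hQ.comm u hu v hv with e | e
      · exact e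
      · exact absurd e (hno u hu huz v hv hvz)
    obtain ⟨q, hq, hqe⟩ := hQ.exists_toggle hz' hz'1 hne
    let S₀ : Finset G := {1, z, z', z * z'}
    let S : Finset G := S₀ ∪ S₀.image (fun a => q⁻¹ * a)
    have hS : S.card ≤ 8 := by
      have h1 : S₀.card ≤ 4 := Finset.card_le_four
      have h2 : S.card ≤ S₀.card + (S₀.image (fun a => q⁻¹ * a)).card :=
        Finset.card_union_le S₀ (S₀.image (fun a => q⁻¹ * a))
      have h3 : (S₀.image (fun a => q⁻¹ * a)).card ≤ S₀.card := Finset.card_image_le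
      omega
    have hsub : (Q : Set G) ⊆ S := by
      intro x hx
      have hxQ : x ∈ Q := hx
      rcases hQ.comm x hxQ z' hz' with e | e
      · have := hUU x hxQ e
        simp only [S, S₀, Finset.coe_union, Set.mem_union, Finset.mem_coe, Finset.mem_insert, Finset.mem_singleton]
        left
        exact this
      · have h1 : (q * x) * z' = z' * (q * x) := by
          calc (q * x) * z' = q * (x * z') := by group
            _ = q * (z * (z' * x)) := by rw [e]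
            _ = (q * z) * (z' * x) := by group
            _ = (z * q) * (z' * x) := by rw [hzc q hq]
            _ = z * ((q * z') * x) := by group
            _ = z * ((z * (z' * q)) * x) := by rw [hqe]
            _ = (z * z) * (z' * (q * x)) := by group
            _ = _ := by rw [hzz, one_mul]
        have h2 := hUU _ (Q.mul_mem hq hxQ) h1
        simp only [S, S₀, Finset.coe_union, Set.mem_union, Finset.mem_coe, Finset.mem_insert, Finset.mem_singleton, Finset.mem_image]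
        right
        refine ⟨q * x, h2, by group⟩
    have h5 : (Q : Set G).ncard ≤ (S : Set G).ncard := Set.ncard_le_ncard hsub S.finite_toSet
    rw [Set.ncard_coe_finset, ← Nat.card_coe_set_eq] at h5
    have h6 : Nat.card (Q : Set G) = Nat.card Q := rfl
    omega
  have huuz : (u₂ * u₁) * z' = z' * (u₂ * u₁) := by
    rw [mul_assoc, hu₁z, ← mul_assoc, hu₂z, mul_assoc]
  have huuzi : (u₂ * u₁)⁻¹ * z' = z' * (u₂ * u₁)⁻¹ := by
    calc (u₂ * u₁)⁻¹ * z' = (u₂ * u₁)⁻¹ * (z' * ((u₂ * u₁) * (u₂ * u₁)⁻¹)) := by group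
      _ = (u₂ * u₁)⁻¹ * ((z' * (u₂ * u₁)) * (u₂ * u₁)⁻¹) := by group
      _ = (u₂ * u₁)⁻¹ * (((u₂ * u₁) * z') * (u₂ * u₁)⁻¹) := by rw [huuz]
      _ = z' * (u₂ * u₁)⁻¹ := by group
  have hall : ∀ w ∈ Q', w * z = z * w := by
    intro w hw
    set x := (u₂ * u₁)⁻¹ * w * (u₂ * u₁)⁻¹⁻¹ with hx
    have hxQ : x ∈ Q' := hQ'.norm _ huuzi w hw
    have hw0 : (u₂ * u₁) * x * (u₂ * u₁)⁻¹ = w := by
      rw [hx]
      group
    set c₁ := x * u₁ * x⁻¹ * u₁⁻¹ with hc₁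
    set c₂ := x * u₂ * x⁻¹ * u₂⁻¹ with hc₂
    have hc₁Q : c₁ ∈ Q' := by
      have : c₁ = x * (u₁ * x⁻¹ * u₁⁻¹) := by rw [hc₁]; group
      rw [this]
      exact Q'.mul_mem hxQ (hQ'.norm u₁ hu₁z _ (Q'.inv_mem hxQ))
    have hc₂Q : c₂ ∈ Q' := by
      have : c₂ = x * (u₂ * x⁻¹ * u₂⁻¹) := by rw [hc₂]; group
      rw [this]
      exact Q'.mul_mem hxQ (hQ'.norm u₂ hu₂z _ (Q'.inv_mem hxQ))
    have he₁ := hYU c₁ hc₁Q (hF x hxQ u₁ hu₁ hu₁z) u₂ hu₂ hu₂z
    have he₂ := hYU c₂ hc₂Q (hF x hxQ u₂ hu₂ hu₂z) u₁ hu₁ hu₁z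
    set e₁ := c₁ * u₂ * c₁⁻¹ * u₂⁻¹ with he₁d
    set e₂ := c₂ * u₁ * c₂⁻¹ * u₁⁻¹ with he₂d
    have hw1 : w = (u₂ * c₁⁻¹ * u₂⁻¹) * (c₂⁻¹ * x) := by
      rw [← hw0, hc₁, hc₂]
      group
    have hw2 : z * w * z⁻¹ = (u₁ * c₂⁻¹ * u₁⁻¹) * (c₁⁻¹ * x) := by
      have h1 : z * w * z⁻¹ = (u₁ * u₂) * x * (u₁ * u₂)⁻¹ := by
        rw [hu, ← hw0]
        group
      rw [h1, hc₁, hc₂]
      group
    have hh1 : u₂ * c₁⁻¹ * u₂⁻¹ = c₁⁻¹ * e₁ := by
      rw [he₁d]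
      group
    have hh2 : u₁ * c₂⁻¹ * u₁⁻¹ = c₂⁻¹ * e₂ := by
      rw [he₂d]
      group
    obtain ⟨e₃, he₃, hh3⟩ : ∃ e₃ : G, (e₃ = 1 ∨ e₃ = z') ∧ c₁⁻¹ * c₂⁻¹ = e₃ * (c₂⁻¹ * c₁⁻¹) := by
      rcases hQ'.comm _ (Q'.inv_mem hc₁Q) _ (Q'.inv_mem hc₂Q) with e | e
      · exact ⟨1, Or.inl rfl, by rw [e, one_mul]⟩
      · exact ⟨z', Or.inr rfl, e⟩
    have hc₁i := Q'.inv_mem hc₁Q
    have hc₂i := Q'.inv_mem hc₂Q
    set t := c₂⁻¹ * c₁⁻¹ * x with ht
    have hw3 : w = e₁ * e₃ * t := by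
      rw [hw1, hh1]
      calc c₁⁻¹ * e₁ * (c₂⁻¹ * x) = (c₁⁻¹ * e₁) * c₂⁻¹ * x := by group
        _ = (e₁ * c₁⁻¹) * c₂⁻¹ * x := by rw [hK1 e₁ he₁ _ hc₁i]
        _ = e₁ * (c₁⁻¹ * c₂⁻¹) * x := by group
        _ = e₁ * (e₃ * (c₂⁻¹ * c₁⁻¹)) * x := by rw [hh3]
        _ = _ := by rw [ht]; group
    have hw4 : z * w * z⁻¹ = e₂ * t := by
      rw [hw2, hh2]
      calc c₂⁻¹ * e₂ * (c₁⁻¹ * x) = (c₂⁻¹ * e₂) * c₁⁻¹ * x := by group
        _ = (e₂ * c₂⁻¹) * c₁⁻¹ * x := by rw [hK1 e₂ he₂ _ hc₂i]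
        _ = _ := by rw [ht]; group
    refine hA' w hw ?_
    have e5 : w * z * w⁻¹ * z⁻¹ = w * (z * w * z⁻¹)⁻¹ := by group
    have e6 : w * (z * w * z⁻¹)⁻¹ = e₁ * e₃ * e₂⁻¹ := by
      rw [hw4]
      conv_lhs => rw [hw3]
      group
    rw [e5, e6, hKi e₂ he₂]
    exact hKm _ _ (hKm _ _ he₁ he₃) he₂
  rcases hQ'.cen z (fun a ha => (hall a ha).symm) with e | e
  · exact hQ.z_ne e
  · exact hne e.symm

end E

end Cfsg.Agent.H25
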