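import Cfsg.Agent.Lib.H25.LE2
set_option autoImplicit false
set_option linter.style.haveILetI false

/-! Large extraspecial `2`-subgroups: pairs `Q`, `Q^g`. -/

namespace Cfsg.Agent.H25

section E
variable {G : Type*} [Group G] {Q Q' : Subgroup G} {z z' : G}

/-- The hypotheses on `Q`, `Q^g`. -/
structure LEP (Q Q' : Subgroup G) (z z' : G) : Prop where
  h : LE Q z
  h' : LE Q' z'
  mem' : z ∈ Q'
  mem : z' ∈ Q
  ne : z' ≠ z

theorem LEP.symm (p : LEP Q Q' z z') : LEP Q' Q z' z := ⟨p.h', p.h, p.mem, p.mem', p.ne.symm⟩

/-- The four-group, elementwise. -/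
def VV (z z' x : G) : Prop := x = 1 ∨ x = z ∨ x = z' ∨ x = z * z'

theorem LEP.comm (p : LEP Q Q' z z') : z * z' = z' * z := (p.h.z_comm z' p.mem).symm

theorem VV.symm (p : LEP Q Q' z z') {x : G} (h : VV z z' x) : VV z' z x := by
  rcases h with h | h | h | h
  · exact Or.inl h
  · exact Or.inr (Or.inr (Or.inl h))
  · exact Or.inr (Or.inl h)
  · exact Or.inr (Or.inr (Or.inr (by rw [h, p.comm])))

/-- `Q ∩ Q'` has exponent two. -/
theorem LEP.sq_E (p : LEP Q Q' z z') {a : G} (ha : a ∈ Q) (ha' : a ∈ Q') : a * a = 1 := by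
  rcases p.h.sq a ha with e | e
  · exact e
  rcases p.h'.sq a ha' with e' | e'
  · exact e'
  exact absurd (e'.symm.trans e) p.ne

theorem LEP.comm_E (p : LEP Q Q' z z') {a b : G} (ha : a ∈ Q) (ha' : a ∈ Q') (hb : b ∈ Q) (hb' : b ∈ Q') :
    a * b = b * a := by
  rcases p.h.comm a ha b hb with e | e
  · exact e
  rcases p.h'.comm a ha' b hb' with e' | e'
  · exact e'
  exact absurd (mul_right_cancel (e'.symm.trans e)) p.ne

/-- The toggling element. -/
theorem LEP.exists_q (p : LEP Q Q' z z') : ∃ q ∈ Q, q * z' = z * (z' * q) :=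
  p.h.exists_toggle p.mem p.h'.z_ne p.ne

/-- An element of `Q` commuting with `U` and a toggle commutes with `Q`. -/
theorem LEP.comm_of_U_q (p : LEP Q Q' z z') {b q : G} (hq : q ∈ Q) (hqe : q * z' = z * (z' * q))
    (hU : ∀ u ∈ Q, u * z' = z' * u → b * u = u * b) (hbq : b * q = q * b) :
    ∀ x ∈ Q, b * x = x * b := by
  intro x hx
  rcases p.h.comm x hx z' p.mem with e | e
  · exact hU x hx e
  · have h1 : (q * x) * z' = z' * (q * x) := by
      calc (q * x) * z' = q * (x * z') := by group
        _ = q * (z * (z' * x)) := by rw [e]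
        _ = (q * z) * (z' * x) := by group
        _ = (z * q) * (z' * x) := by rw [p.h.z_comm q hq]
        _ = z * ((q * z') * x) := by group
        _ = z * ((z * (z' * q)) * x) := by rw [hqe]
        _ = (z * z) * (z' * (q * x)) := by group
        _ = _ := by rw [p.h.z_sq, one_mul]
    have h2 := hU _ (Q.mul_mem hq hx) h1
    have h3 : q * (b * x) = q * (x * b) := by
      calc q * (b * x) = (q * b) * x := by group
        _ = (b * q) * x := by rw [hbq]
        _ = b * (q * x) := by group
        _ = (q * x) * b := h2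
        _ = q * (x * b) := by group
    exact mul_left_cancel h3

/-- The centralizer of `U = C_Q(z')` in `G` is `V`. -/
theorem LEP.cen_U (p : LEP Q Q' z z') {a : G}
    (hU : ∀ u ∈ Q, u * z' = z' * u → a * u = u * a) : VV z z' a := by
  have hzz' := p.comm
  have hz2 := p.h.z_sq
  have hz'2 := p.h'.z_sq
  have haz : a * z = z * a := hU z p.h.z_mem hzz'
  have haz' : a * z' = z' * a := hU z' p.mem rfl
  obtain ⟨q, hq, hqe⟩ := p.exists_q
  have hqz : q * z = z * q := p.h.z_comm q hq
  set c := a * q * a⁻¹ with hc
  have hcQ : c ∈ Q := p.h.norm a haz q hq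
  set v := c * q⁻¹ with hv
  have hvQ : v ∈ Q := Q.mul_mem hcQ (Q.inv_mem hq)
  have hcv : c = v * q := by rw [hv]; group
  -- `v` commutes with `U`
  have hvU : ∀ u ∈ Q, u * z' = z' * u → v * u = u * v := by
    intro u hu huz
    have hau : a * u = u * a := hU u hu huz
    obtain ⟨ε, hε, h2⟩ : ∃ ε : G, (ε = 1 ∨ ε = z) ∧ q * u = ε * (u * q) := by
      rcases p.h.comm q hq u hu with e | e
      · exact ⟨1, Or.inl rfl, by rw [e, one_mul]⟩
      · exact ⟨z, Or.inr rfl, e⟩
    have haε : a * ε = ε * a := by
      rcases hε with rfl | rfl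
      · group
      · exact haz
    have h1 : c * u = ε * (u * c) := by
      have h6 : a⁻¹ * u = u * a⁻¹ := by
        rw [inv_mul_eq_iff_eq_mul, ← mul_assoc, hau]; group
      calc c * u = a * q * (a⁻¹ * u) := by rw [hc]; group
        _ = a * q * (u * a⁻¹) := by rw [h6]
        _ = a * (q * u) * a⁻¹ := by group
        _ = a * (ε * (u * q)) * a⁻¹ := by rw [h2]
        _ = (a * ε) * (u * q) * a⁻¹ := by group
        _ = (ε * a) * (u * q) * a⁻¹ := by rw [haε]
        _ = ε * ((a * u) * q * a⁻¹) := by group
        _ = ε * ((u * a) * q * a⁻¹) := by rw [hau]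
        _ = _ := by rw [hc]; group
    have h4 : ε * u * q = q * u := by rw [h2]; group
    have h5 : v * (ε * u) * q = (ε * u) * v * q := by
      calc v * (ε * u) * q = c * q⁻¹ * (ε * u * q) := by rw [hv]; group
        _ = c * q⁻¹ * (q * u) := by rw [h4]
        _ = c * u := by group
        _ = ε * (u * c) := h1
        _ = ε * u * (c * q⁻¹ * q) := by group
        _ = (ε * u) * v * q := by rw [hv]; group
    have h7 := mul_right_cancel h5
    have h8 : v * ε = ε * v := by
      rcases hε with rfl | rfl
      · group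
      · exact p.h.z_comm v hvQ
    have h9 : ε * (v * u) = ε * (u * v) := by
      calc ε * (v * u) = (ε * v) * u := by group
        _ = (v * ε) * u := by rw [h8]
        _ = v * (ε * u) := by group
        _ = ε * u * v := h7
        _ = _ := by group
    exact mul_left_cancel h9
  -- `v` lies in `V`
  have hvV := p.h.perp p.mem hvQ hvU hz'2
  -- the square of `q`
  have hq2 : a * (q * q) * a⁻¹ = q * q := by
    rcases p.h.sq q hq with e | e <;> rw [e]
    · group
    · rw [haz]; group
  have hcc : c * c = q * q := by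
    rw [← hq2, hc]; group
  have hqz'i : q * z' * q⁻¹ = z * z' := by
    rw [hqe]; group
  have hcase : ∀ x : G, (x * (q * x * q⁻¹) = z) → v = x → False := by
    intro x hx hvx
    have h1 : c * c = z * (q * q) := by
      calc c * c = v * q * (v * q) := by rw [hcv]
        _ = x * q * (x * q) := by rw [hvx]
        _ = (x * (q * x * q⁻¹)) * (q * q) := by group
        _ = _ := by rw [hx]
    rw [hcc] at h1
    apply p.h.z_ne
    have h2 : 1 * (q * q) = z * (q * q) := by rw [one_mul]; exact h1
    exact (mul_right_cancel h2).symm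
  rcases hvV with e | e | e | e
  · -- `a` centralizes `Q`
    have hb : a * q = q * a := by
      have : c * q⁻¹ = 1 := e
      have h2 : a * q * a⁻¹ = q := by rw [← hc]; exact mul_inv_eq_one.1 this
      exact mul_inv_eq_iff_eq_mul.1 h2
    rcases p.h.cen a (p.comm_of_U_q hq hqe hU hb) with h | h
    · exact Or.inl h
    · exact Or.inr (Or.inl h)
  · -- `a z'` centralizes `Q`
    have hcz : a * q * a⁻¹ = z * q := by
      have h2 : c = v * q := hcv
      rw [e] at h2
      exact h2
    have hz'q : z' * q = z * (q * z') := by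
      rw [hqe, ← mul_assoc, hz2, one_mul]
    have hb : (a * z') * q = q * (a * z') := by
      have h3 : a * q = z * (q * a) := by
        rw [← mul_assoc, ← hcz]; group
      calc (a * z') * q = a * (z' * q) := by group
        _ = a * (z * (q * z')) := by rw [hz'q]
        _ = (a * z) * (q * z') := by group
        _ = (z * a) * (q * z') := by rw [haz]
        _ = z * (a * q) * z' := by group
        _ = z * (z * (q * a)) * z' := by rw [h3]
        _ = (z * z) * (q * (a * z')) := by group
        _ = _ := by rw [hz2, one_mul]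
    have hbU : ∀ u ∈ Q, u * z' = z' * u → (a * z') * u = u * (a * z') := by
      intro u hu huz
      calc (a * z') * u = a * (z' * u) := by group
        _ = a * (u * z') := by rw [huz]
        _ = (a * u) * z' := by group
        _ = (u * a) * z' := by rw [hU u hu huz]
        _ = _ := by group
    have hinv : a = (a * z') * z' := by rw [mul_assoc, hz'2, mul_one]
    rcases p.h.cen _ (p.comm_of_U_q hq hqe hbU hb) with h | h
    · right; right; left
      rw [hinv, h, one_mul]
    · right; right; right
      rw [hinv, h]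
  · exfalso
    refine hcase z' ?_ e
    rw [hqz'i]
    calc z' * (z * z') = z' * (z' * z) := by rw [hzz']
      _ = (z' * z') * z := by group
      _ = z := by rw [hz'2, one_mul]
  · exfalso
    refine hcase (z * z') ?_ e
    have h3 : q * (z * z') * q⁻¹ = z' := by
      calc q * (z * z') * q⁻¹ = (q * z) * z' * q⁻¹ := by group
        _ = (z * q) * z' * q⁻¹ := by rw [hqz]
        _ = z * (q * z' * q⁻¹) := by group
        _ = z * (z * z') := by rw [hqz'i]
        _ = z' := by rw [← mul_assoc, hz2, one_mul]
    rw [h3, mul_assoc, hz'2, mul_one]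

end E

end Cfsg.Agent.H25
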