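import Cfsg.Agent.Lib.H25.LE3
set_option autoImplicit false
set_option linter.style.haveILetI false

/-! Large extraspecial `2`-subgroups: setup, the action on the four-group, oddness. -/

namespace Cfsg.Agent.H25

section E
variable {G : Type*} [Group G] {Q Q' : Subgroup G} {z z' : G}

theorem LE.of_hyps [Finite G] (Q : Subgroup G) (hL1 : Cfsg.IsExtraspecial 2 ↥Q)
    (hL2 : Subgroup.centralizer (Q : Set G) = ((Subgroup.center ↥Q).map Q.subtype))
    (hL3 : Subgroup.centralizer (((Subgroup.center ↥Q).map Q.subtype) : Set G) ≤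
      Subgroup.normalizer (Q : Set G)) :
    ∃ z : G, LE Q z ∧ ∀ x, x ∈ (Subgroup.center ↥Q).map Q.subtype ↔ x = 1 ∨ x = z := by
  obtain ⟨z, hz1, hz2, hzc, hsq, hcm, hcen⟩ := Cfsg.Agent.H13.extraspecial_two_setup hL1
  have hZ : ∀ x, x ∈ (Subgroup.center ↥Q).map Q.subtype ↔ x = 1 ∨ x = (z : G) := by
    intro x
    constructor
    · rintro ⟨c, hc, rfl⟩
      rcases (hcen c).1 hc with rfl | rfl
      · exact Or.inl rfl
      · exact Or.inr rfl
    · rintro (rfl | rfl)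
      · exact Subgroup.one_mem _
      · exact ⟨z, (hcen z).2 (Or.inr rfl), rfl⟩
  have hsq' : (z : G) * z = 1 := by
    have : z * z = 1 := by rw [← pow_two]; exact hz2
    exact congrArg Subtype.val this
  refine ⟨z, ⟨z.2, fun e => hz1 (Subtype.ext e), hsq', ?_, ?_, ?_, ?_, ?_⟩, hZ⟩
  · intro a ha
    exact congrArg Subtype.val (hzc ⟨a, ha⟩)
  · intro a ha b hb
    rcases hcm ⟨a, ha⟩ ⟨b, hb⟩ with e | e
    · exact Or.inl (congrArg Subtype.val e)
    · exact Or.inr (congrArg Subtype.val e)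
  · intro a ha
    rcases hsq ⟨a, ha⟩ with e | e
    · left
      have := congrArg Subtype.val e
      simpa [pow_two] using this
    · right
      have := congrArg Subtype.val e
      simpa [pow_two] using this
  · intro c hc
    have h1 : c ∈ Subgroup.centralizer (Q : Set G) := by
      rw [Subgroup.mem_centralizer_iff]
      intro a ha
      exact (hc a ha).symm
    rw [hL2] at h1
    exact (hZ c).1 h1
  · intro c hc a ha
    have h1 : c ∈ Subgroup.centralizer (((Subgroup.center ↥Q).map Q.subtype) : Set G) := by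
      rw [Subgroup.mem_centralizer_iff]
      intro x hx
      rcases (hZ x).1 hx with rfl | rfl
      · group
      · exact hc.symm
    have h2 := hL3 h1
    rw [Subgroup.mem_normalizer_iff] at h2
    exact (h2 a).1 ha

theorem mem_map_conj {Q : Subgroup G} {g x : G} :
    x ∈ Q.map (MulAut.conj g).toMonoidHom ↔ g⁻¹ * x * g ∈ Q := by
  constructor
  · rintro ⟨a, ha, rfl⟩
    have : g⁻¹ * ((MulAut.conj g).toMonoidHom a) * g = a := by
      simp [MulAut.conj_apply]
      group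
    rwa [this]
  · intro h
    refine ⟨_, h, ?_⟩
    simp [MulAut.conj_apply]
    group

theorem LE.pair [Finite G] (hQ : LE Q z) (g : G) (hg : g * z * g⁻¹ ∈ Q) (hne : g * z * g⁻¹ ≠ z)
    (hcard : 8 < Nat.card Q) :
    LEP Q (Q.map (MulAut.conj g).toMonoidHom) z (g * z * g⁻¹) ∧
    (∀ h : G, h * z * h⁻¹ = g * z * g⁻¹ → ∀ a ∈ Q, h * a * h⁻¹ ∈ Q.map (MulAut.conj g).toMonoidHom) ∧
    (∀ h : G, h * (g * z * g⁻¹) * h⁻¹ = z → ∀ a ∈ Q.map (MulAut.conj g).toMonoidHom, h * a * h⁻¹ ∈ Q) := by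
  have hQ' : LE (Q.map (MulAut.conj g).toMonoidHom) (g * z * g⁻¹) :=
    hQ.conj g (fun x => mem_map_conj)
  have htr : ∀ h : G, h * z * h⁻¹ = g * z * g⁻¹ → ∀ a ∈ Q, h * a * h⁻¹ ∈ Q.map (MulAut.conj g).toMonoidHom := by
    intro h he a ha
    rw [mem_map_conj]
    have h1 : (g⁻¹ * h) * z = z * (g⁻¹ * h) := by
      have h2 : h * z = g * z * g⁻¹ * h := by
        rw [← he]; group
      calc (g⁻¹ * h) * z = g⁻¹ * (h * z) := by group
        _ = g⁻¹ * (g * z * g⁻¹ * h) := by rw [h2]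
        _ = _ := by group
    have h3 := hQ.norm _ h1 a ha
    have e : g⁻¹ * (h * a * h⁻¹) * g = g⁻¹ * h * a * (g⁻¹ * h)⁻¹ := by group
    rwa [e]
  have htr' : ∀ h : G, h * (g * z * g⁻¹) * h⁻¹ = z → ∀ a ∈ Q.map (MulAut.conj g).toMonoidHom, h * a * h⁻¹ ∈ Q := by
    intro h he a ha
    rw [mem_map_conj] at ha
    have h1 : (h * g) * z = z * (h * g) := by
      have h2 : z * (h * g) = (h * (g * z * g⁻¹) * h⁻¹) * (h * g) := by rw [he]
      rw [h2]
      group
    have h3 := hQ.norm _ h1 _ ha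
    have e : h * g * (g⁻¹ * a * g) * (h * g)⁻¹ = h * a * h⁻¹ := by group
    rwa [e] at h3
  refine ⟨⟨hQ, hQ', ?_, hg, hne⟩, htr, htr'⟩
  exact hQ.z_mem_of_pair hQ' hg hne htr hcard

/-- The nonidentity elements of `V`. -/
def tvv (z z' : G) : Fin 3 → G := ![z, z', z * z']

theorem LEP.tvv_ne (p : LEP Q Q' z z') (i : Fin 3) : tvv z z' i ≠ 1 := by
  fin_cases i
  · exact p.h.z_ne
  · exact p.h'.z_ne
  · intro e
    apply p.ne
    change z * z' = 1 at e
    calc z' = z * (z * z') := by rw [← mul_assoc, p.h.z_sq, one_mul]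
      _ = z := by rw [e, mul_one]

theorem LEP.tvv_inj (p : LEP Q Q' z z') : Function.Injective (tvv z z') := by
  have h1 : z * z' ≠ z := by
    intro e
    apply p.h'.z_ne
    exact mul_left_cancel (e.trans (mul_one z).symm)
  have h2 : z * z' ≠ z' := by
    intro e
    apply p.h.z_ne
    exact mul_right_cancel (e.trans (one_mul z').symm)
  have hne := p.ne
  intro i j hij
  fin_cases i <;> fin_cases j <;> first | rfl | (exfalso; revert hij; simp [tvv]; first | exact hne | exact hne.symm | exact h1 | exact h1.symm | exact h2 | exact h2.symm | exact p.h.z_ne | exact p.h'.z_ne)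

theorem VV_iff_tvv {x : G} : VV z z' x ↔ x = 1 ∨ ∃ i, x = tvv z z' i := by
  constructor
  · rintro (h | h | h | h)
    · exact Or.inl h
    · exact Or.inr ⟨0, h⟩
    · exact Or.inr ⟨1, h⟩
    · exact Or.inr ⟨2, h⟩
  · rintro (h | ⟨i, h⟩)
    · exact Or.inl h
    · fin_cases i
      · exact Or.inr (Or.inl h)
      · exact Or.inr (Or.inr (Or.inl h))
      · exact Or.inr (Or.inr (Or.inr h))

/-- The permutation representation on three points. -/
theorem exists_perm3 (t : Fin 3 → G) (ht : Function.Injective t) (H : Subgroup G)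
    (hH : ∀ x ∈ H, ∀ i, ∃ j, x * t i * x⁻¹ = t j) :
    ∃ φ : H →* Equiv.Perm (Fin 3), ∀ (x : H) (i : Fin 3), (x : G) * t i * (x : G)⁻¹ = t (φ x i) := by
  choose! f hf using hH
  have hmul : ∀ x ∈ H, ∀ y ∈ H, ∀ i, f (x * y) i = f x (f y i) := by
    intro x hx y hy i
    apply ht
    rw [← hf _ (H.mul_mem hx hy), ← hf x hx, ← hf y hy]
    group
  have hone : ∀ i, f 1 i = i := by
    intro i
    apply ht
    rw [← hf 1 H.one_mem]
    group
  let φ₀ : H → Equiv.Perm (Fin 3) := fun x =>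
    { toFun := f x
      invFun := f (x : G)⁻¹
      left_inv := by
        intro i
        rw [← hmul _ (H.inv_mem x.2) _ x.2, inv_mul_cancel, hone]
      right_inv := by
        intro i
        rw [← hmul _ x.2 _ (H.inv_mem x.2), mul_inv_cancel, hone] }
  refine ⟨MonoidHom.mk' φ₀ ?_, ?_⟩
  · intro x y
    ext i
    exact congrArg _ (hmul x x.2 y y.2 i)
  · intro x i
    exact hf x x.2 i

theorem perm3_closure (a b : Equiv.Perm (Fin 3)) (ha : a = Equiv.swap 1 2) (hb : b = Equiv.swap 0 2) :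
    ∀ σ : Equiv.Perm (Fin 3), σ = 1 ∨ σ = a ∨ σ = b ∨ σ = a * b ∨ σ = b * a ∨ σ = a * b * a := by
  subst ha hb
  decide

/-- Conjugation by the toggle. -/
theorem LEP.conj_toggle (p : LEP Q Q' z z') {q : G} (hq : q ∈ Q) (hqe : q * z' = z * (z' * q)) (i : Fin 3) :
    q * tvv z z' i * q⁻¹ = tvv z z' (Equiv.swap 1 2 i) := by
  have hqz : q * z * q⁻¹ = z := by
    rw [p.h.z_comm q hq]; group
  have hqz' : q * z' * q⁻¹ = z * z' := by
    rw [hqe]; group
  fin_cases i
  · show q * z * q⁻¹ = tvv z z' (Equiv.swap 1 2 0)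
    rw [hqz, Equiv.swap_apply_of_ne_of_ne (by decide) (by decide)]
    rfl
  · show q * z' * q⁻¹ = tvv z z' (Equiv.swap 1 2 1)
    rw [hqz', Equiv.swap_apply_left]
    rfl
  · show q * (z * z') * q⁻¹ = tvv z z' (Equiv.swap 1 2 2)
    rw [Equiv.swap_apply_right]
    show q * (z * z') * q⁻¹ = z'
    calc q * (z * z') * q⁻¹ = (q * z * q⁻¹) * (q * z' * q⁻¹) := by group
      _ = z * (z * z') := by rw [hqz, hqz']
      _ = z' := by rw [← mul_assoc, p.h.z_sq, one_mul]

/-- Conjugation by the other toggle. -/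
theorem LEP.conj_toggle' (p : LEP Q Q' z z') {y : G} (hy : y ∈ Q') (hye : y * z = z' * (z * y)) (i : Fin 3) :
    y * tvv z z' i * y⁻¹ = tvv z z' (Equiv.swap 0 2 i) := by
  have hyz' : y * z' * y⁻¹ = z' := by
    rw [p.h'.z_comm y hy]; group
  have hyz : y * z * y⁻¹ = z * z' := by
    rw [hye, p.comm]; group
  fin_cases i
  · show y * z * y⁻¹ = tvv z z' (Equiv.swap 0 2 0)
    rw [hyz, Equiv.swap_apply_left]
    rfl
  · show y * z' * y⁻¹ = tvv z z' (Equiv.swap 0 2 1)
    rw [hyz', Equiv.swap_apply_of_ne_of_ne (by decide) (by decide)]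
    rfl
  · show y * (z * z') * y⁻¹ = tvv z z' (Equiv.swap 0 2 2)
    rw [Equiv.swap_apply_right]
    show y * (z * z') * y⁻¹ = z
    calc y * (z * z') * y⁻¹ = (y * z * y⁻¹) * (y * z' * y⁻¹) := by group
      _ = (z * z') * z' := by rw [hyz, hyz']
      _ = z := by rw [mul_assoc, p.h'.z_sq, mul_one]

/-- The action of elements of `Q`. -/
theorem LEP.conj_Q (p : LEP Q Q' z z') {q : G} (hq : q ∈ Q) (i : Fin 3) :
    ∃ j, q * tvv z z' i * q⁻¹ = tvv z z' j := by
  rcases p.h.comm q hq z' p.mem with e | e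
  · have hz' : q * z' * q⁻¹ = z' := by rw [e]; group
    have hz : q * z * q⁻¹ = z := by rw [p.h.z_comm q hq]; group
    refine ⟨i, ?_⟩
    fin_cases i
    · exact hz
    · exact hz'
    · show q * (z * z') * q⁻¹ = z * z'
      calc q * (z * z') * q⁻¹ = (q * z * q⁻¹) * (q * z' * q⁻¹) := by group
        _ = _ := by rw [hz, hz']
  · exact ⟨_, p.conj_toggle hq e i⟩

theorem LEP.conj_Q' (p : LEP Q Q' z z') {q : G} (hq : q ∈ Q') (i : Fin 3) :
    ∃ j, q * tvv z z' i * q⁻¹ = tvv z z' j := by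
  rcases p.h'.comm q hq z p.mem' with e | e
  · have hz : q * z * q⁻¹ = z := by rw [e]; group
    have hz' : q * z' * q⁻¹ = z' := by rw [p.h'.z_comm q hq]; group
    refine ⟨i, ?_⟩
    fin_cases i
    · exact hz
    · exact hz'
    · show q * (z * z') * q⁻¹ = z * z'
      calc q * (z * z') * q⁻¹ = (q * z * q⁻¹) * (q * z' * q⁻¹) := by group
        _ = _ := by rw [hz, hz']
  · exact ⟨_, p.conj_toggle' hq e i⟩

/-- A fixed-point-free involution inverts. -/
theorem inverts_of_fpf [Finite G] (K : Subgroup G) {t : G} (ht : t * t = 1)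
    (hN : ∀ k ∈ K, t * k * t⁻¹ ∈ K) (hf : ∀ k ∈ K, t * k = k * t → k = 1) :
    ∀ k ∈ K, t * k * t⁻¹ = k⁻¹ := by
  let f : K → K := fun x => ⟨(x : G)⁻¹ * (t * x * t⁻¹), K.mul_mem (K.inv_mem x.2) (hN _ x.2)⟩
  have hinj : Function.Injective f := by
    intro x y hxy
    have h1 : (x : G)⁻¹ * (t * x * t⁻¹) = (y : G)⁻¹ * (t * y * t⁻¹) := congrArg Subtype.val hxy
    have h2 : (y : G) * (x : G)⁻¹ = t * ((y : G) * (x : G)⁻¹) * t⁻¹ := by
      have h3 : (t * y * t⁻¹) = (y : G) * ((x : G)⁻¹ * (t * x * t⁻¹)) := by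
        rw [h1]; group
      calc (y : G) * (x : G)⁻¹ = (y : G) * ((x : G)⁻¹ * (t * x * t⁻¹)) * (t * x * t⁻¹)⁻¹ := by group
        _ = (t * y * t⁻¹) * (t * x * t⁻¹)⁻¹ := by rw [← h3]
        _ = _ := by group
    have h4 : t * ((y : G) * (x : G)⁻¹) = ((y : G) * (x : G)⁻¹) * t := by
      exact (mul_inv_eq_iff_eq_mul.1 h2.symm)
    have h5 := hf _ (K.mul_mem y.2 (K.inv_mem x.2)) h4
    exact Subtype.ext (mul_inv_eq_one.1 h5).symm
  have hsurj : Function.Surjective f := Finite.injective_iff_surjective.1 hinj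
  intro k hk
  obtain ⟨x, hx⟩ := hsurj ⟨k, hk⟩
  have h1 : k = (x : G)⁻¹ * (t * x * t⁻¹) := (congrArg Subtype.val hx).symm
  have hti : t⁻¹ = t := inv_eq_of_mul_eq_one_left ht
  rw [h1, hti]
  have e1 : t * ((x : G)⁻¹ * (t * x * t)) * t = t * (x : G)⁻¹ * t * x * (t * t) := by group
  have e2 : ((x : G)⁻¹ * (t * x * t))⁻¹ = t⁻¹ * (x : G)⁻¹ * t⁻¹ * x := by group
  rw [e1, e2, ht, hti, mul_one]

theorem LE.eq_one_of_odd (h : LE Q z) [Finite G] {K : Subgroup G} (hK : Odd (Nat.card K)) {a : G} (ha : a ∈ K)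
    (haQ : a ∈ Q) : a = 1 := by
  have h4 : a ^ 4 = 1 := by
    have : a ^ 4 = (a * a) * (a * a) := by
      rw [show (4 : ℕ) = 2 + 2 from rfl, pow_add, pow_two]
    rw [this]
    rcases h.sq a haQ with e | e
    · rw [e, one_mul]
    · rw [e, h.z_sq]
  have h5 : orderOf (⟨a, ha⟩ : K) ∣ 4 := by
    apply orderOf_dvd_of_pow_eq_one
    apply Subtype.ext
    simpa using h4
  have h6 : orderOf (⟨a, ha⟩ : K) ∣ Nat.card K := orderOf_dvd_natCard _
  have h7 : Nat.Coprime 4 (Nat.card K) := by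
    have : Nat.Coprime (2 ^ 2) (Nat.card K) := Nat.Coprime.pow_left 2 (Nat.coprime_two_left.2 hK)
    simpa using this
  have h8 : orderOf (⟨a, ha⟩ : K) = 1 := Nat.eq_one_of_dvd_coprimes h7 h5 h6
  have h9 := orderOf_eq_one_iff.1 h8
  exact congrArg Subtype.val h9

/-- `Q` normalizes no nontrivial subgroup of odd order. -/
theorem LEP.large [Finite G] (p : LEP Q Q' z z') (K : Subgroup G) (hK : Odd (Nat.card K))
    (hQK : Q ≤ Subgroup.normalizer (K : Set G)) : K = ⊥ := by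
  have hN : ∀ q ∈ Q, ∀ k ∈ K, q * k * q⁻¹ ∈ K := by
    intro q hq k hk
    exact ((Subgroup.mem_normalizer_iff.1 (hQK hq)) k).1 hk
  have hzz' := p.comm
  -- `C_K(z) = 1`
  have h1 : ∀ a ∈ K, z * a = a * z → a = 1 := by
    intro a ha hza
    have hq : ∀ q ∈ Q, a * q = q * a := by
      intro q hq
      have h2 : a * q * a⁻¹ * q⁻¹ ∈ K := by
        have : a * q * a⁻¹ * q⁻¹ = a * (q * a⁻¹ * q⁻¹) := by group
        rw [this]
        exact K.mul_mem ha (hN q hq _ (K.inv_mem ha))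
      have h3 : a * q * a⁻¹ * q⁻¹ ∈ Q := Q.mul_mem (p.h.norm a hza.symm q hq) (Q.inv_mem hq)
      have h4 := p.h.eq_one_of_odd hK h2 h3
      have h5 : a * q * a⁻¹ = q := mul_inv_eq_one.1 h4
      exact mul_inv_eq_iff_eq_mul.1 h5
    rcases p.h.cen a hq with e | e
    · exact e
    · exfalso
      apply p.h.z_ne
      exact p.h.eq_one_of_odd hK (e ▸ ha) p.h.z_mem
  -- `C_K(z') = 1`
  have h2 : ∀ a ∈ K, z' * a = a * z' → a = 1 := by
    intro a ha hza
    apply h1 a ha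
    have h3 : a * z * a⁻¹ * z⁻¹ ∈ K := by
      have : a * z * a⁻¹ * z⁻¹ = a * (z * a⁻¹ * z⁻¹) := by group
      rw [this]
      exact K.mul_mem ha (hN z p.h.z_mem _ (K.inv_mem ha))
    have h4 : a * z * a⁻¹ * z⁻¹ ∈ Q' :=
      Q'.mul_mem (p.h'.norm a hza.symm z p.mem') (Q'.inv_mem p.mem')
    have h5 := p.h'.eq_one_of_odd hK h3 h4
    have h6 : a * z * a⁻¹ = z := mul_inv_eq_one.1 h5
    exact (mul_inv_eq_iff_eq_mul.1 h6).symm
  -- inversion
  have h3 := inverts_of_fpf K p.h.z_sq (hN z p.h.z_mem) h1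
  have h4 := inverts_of_fpf K p.h'.z_sq (hN z' p.mem) h2
  -- `zz'` centralizes `K`
  obtain ⟨q, hq, hqe⟩ := p.exists_q
  have hqi : q * z' * q⁻¹ = z * z' := by rw [hqe]; group
  rw [eq_bot_iff]
  intro k hk
  rw [Subgroup.mem_bot]
  have h5 : (z * z') * k * (z * z')⁻¹ = k := by
    have e1 : (z * z') * k * (z * z')⁻¹ = z * (z' * k * z'⁻¹) * z⁻¹ := by group
    rw [e1, h4 k hk, h3 _ (K.inv_mem hk), inv_inv]
  have h6 : q⁻¹ * k * q ∈ K := by
    have := hN q⁻¹ (Q.inv_mem hq) k hk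
    simpa using this
  have h7 : q⁻¹ * k * q = 1 := by
    apply h2 _ h6
    have h8 : (z * z') * k = k * (z * z') := mul_inv_eq_iff_eq_mul.1 h5
    have h9 : z' * (q⁻¹ * k * q) = q⁻¹ * ((q * z' * q⁻¹) * k) * q := by group
    have h10 : (q⁻¹ * k * q) * z' = q⁻¹ * (k * (q * z' * q⁻¹)) * q := by group
    rw [h9, h10, hqi, h8]
  have e : k = q * (q⁻¹ * k * q) * q⁻¹ := by group
  rw [e, h7]
  group

end E

end Cfsg.Agent.H25
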