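import Cfsg.Agent.Lib.H25.LE4
set_option autoImplicit false
set_option linter.style.haveILetI false

/-! Large extraspecial `2`-subgroups: the four-group as a subgroup, its normalizer's action. -/

namespace Cfsg.Agent.H25

section E
variable {G : Type*} [Group G] {Q Q' : Subgroup G} {z z' : G}

/-- `V` as a subgroup. -/
def LEP.VVs (p : LEP Q Q' z z') : Subgroup G where
  carrier := {x | VV z z' x}
  mul_mem' := by
    intro a b ha hb
    have e1 : z * z = 1 := p.h.z_sq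
    have e2 : z' * z' = 1 := p.h'.z_sq
    have e3 : z' * z = z * z' := p.comm.symm
    have e4 : z * (z * z') = z' := by rw [← mul_assoc, e1, one_mul]
    have e5 : z' * (z * z') = z := by rw [← mul_assoc, e3, mul_assoc, e2, mul_one]
    have e6 : z * z' * z = z' := by rw [mul_assoc, e3, ← mul_assoc, e1, one_mul]
    have e7 : z * z' * z' = z := by rw [mul_assoc, e2, mul_one]
    have e8 : z * z' * (z * z') = 1 := by rw [← mul_assoc, e6, e2]
    change VV z z' a at ha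
    change VV z z' b at hb
    change VV z z' (a * b)
    rcases ha with rfl | rfl | rfl | rfl <;> rcases hb with rfl | rfl | rfl | rfl <;>
      simp only [VV, mul_one, one_mul, e1, e2, e3, e4, e5, e6, e7, e8, true_or, or_true]
  one_mem' := Or.inl rfl
  inv_mem' := by
    intro a ha
    have e1 : z * z = 1 := p.h.z_sq
    have e2 : z' * z' = 1 := p.h'.z_sq
    have e3 : z' * z = z * z' := p.comm.symm
    have e6 : z * z' * z = z' := by rw [mul_assoc, e3, ← mul_assoc, e1, one_mul]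
    have e8 : z * z' * (z * z') = 1 := by rw [← mul_assoc, e6, e2]
    change VV z z' a at ha
    change VV z z' a⁻¹
    rcases ha with rfl | rfl | rfl | rfl
    · left; group
    · right; left; exact inv_eq_of_mul_eq_one_left e1
    · right; right; left; exact inv_eq_of_mul_eq_one_left e2
    · right; right; right; exact inv_eq_of_mul_eq_one_left e8

theorem LEP.mem_VVs (p : LEP Q Q' z z') {x : G} : x ∈ p.VVs ↔ VV z z' x := Iff.rfl

theorem LEP.mem_cen_iff (p : LEP Q Q' z z') {V : Subgroup G} (hV : ∀ x, x ∈ V ↔ VV z z' x) {x : G} :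
    x ∈ Subgroup.centralizer (V : Set G) ↔ ∀ i, x * tvv z z' i * x⁻¹ = tvv z z' i := by
  rw [Subgroup.mem_centralizer_iff]
  constructor
  · intro h i
    have h1 : tvv z z' i ∈ V := (hV _).2 (VV_iff_tvv.2 (Or.inr ⟨i, rfl⟩))
    have h2 := h _ h1
    rw [← h2]
    group
  · intro h a ha
    rcases VV_iff_tvv.1 ((hV a).1 ha) with rfl | ⟨i, rfl⟩
    · group
    · have := h i
      exact (mul_inv_eq_iff_eq_mul.1 this).symm

theorem LEP.conj_of_normalizer (p : LEP Q Q' z z') {V : Subgroup G} (hV : ∀ x, x ∈ V ↔ VV z z' x)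
    (x : G) (hx : x ∈ Subgroup.normalizer (V : Set G)) (i : Fin 3) :
    ∃ j, x * tvv z z' i * x⁻¹ = tvv z z' j := by
  have h1 : tvv z z' i ∈ V := (hV _).2 (VV_iff_tvv.2 (Or.inr ⟨i, rfl⟩))
  have h2 := (Subgroup.mem_normalizer_iff.1 hx _).1 h1
  rcases VV_iff_tvv.1 ((hV _).1 h2) with e | ⟨j, e⟩
  · exfalso
    apply p.tvv_ne i
    have : tvv z z' i = x⁻¹ * (x * tvv z z' i * x⁻¹) * x := by group
    rw [this, e]
    group
  · exact ⟨j, e⟩

/-- The action of the normalizer of `V` on `V^#`. -/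
theorem LEP.exists_phi (p : LEP Q Q' z z') {V : Subgroup G} (hV : ∀ x, x ∈ V ↔ VV z z' x) :
    ∃ φ : Subgroup.normalizer (V : Set G) →* Equiv.Perm (Fin 3),
      (∀ (x : Subgroup.normalizer (V : Set G)) (i : Fin 3),
        (x : G) * tvv z z' i * (x : G)⁻¹ = tvv z z' (φ x i)) ∧
      (∀ x : Subgroup.normalizer (V : Set G), φ x = 1 ↔ (x : G) ∈ Subgroup.centralizer (V : Set G)) := by
  obtain ⟨φ, hφ⟩ := exists_perm3 (tvv z z') p.tvv_inj (Subgroup.normalizer (V : Set G))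
    (fun x hx i => p.conj_of_normalizer hV x hx i)
  refine ⟨φ, hφ, fun x => ?_⟩
  rw [p.mem_cen_iff hV]
  constructor
  · intro h i
    rw [hφ x i, h]
    rfl
  · intro h
    ext i
    have := h i
    rw [hφ x i] at this
    rw [p.tvv_inj this]
    rfl

/-- The elements of `Q`, `Q'` normalize `V`. -/
theorem LEP.Q_le_normalizer (p : LEP Q Q' z z') {V : Subgroup G} (hV : ∀ x, x ∈ V ↔ VV z z' x)
    {q : G} (hq : ∀ i, ∃ j, q * tvv z z' i * q⁻¹ = tvv z z' j)
    (hq' : ∀ i, ∃ j, q⁻¹ * tvv z z' i * q⁻¹⁻¹ = tvv z z' j) :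
    q ∈ Subgroup.normalizer (V : Set G) := by
  have h0 : ∀ r : G, (∀ i, ∃ j, r * tvv z z' i * r⁻¹ = tvv z z' j) → ∀ a ∈ V, r * a * r⁻¹ ∈ V := by
    intro r hr a ha
    rcases VV_iff_tvv.1 ((hV a).1 ha) with rfl | ⟨i, rfl⟩
    · rw [mul_one, mul_inv_cancel]; exact V.one_mem
    · obtain ⟨j, hj⟩ := hr i
      rw [hj]
      exact (hV _).2 (VV_iff_tvv.2 (Or.inr ⟨j, rfl⟩))
  rw [Subgroup.mem_normalizer_iff]
  intro a
  constructor
  · exact h0 q hq a
  · intro ha
    have := h0 q⁻¹ hq' _ ha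
    have e : q⁻¹ * (q * a * q⁻¹) * q⁻¹⁻¹ = a := by group
    rwa [e] at this

theorem LEP.mem_normalizer_Q (p : LEP Q Q' z z') {V : Subgroup G} (hV : ∀ x, x ∈ V ↔ VV z z' x)
    {q : G} (hq : q ∈ Q) : q ∈ Subgroup.normalizer (V : Set G) :=
  p.Q_le_normalizer hV (p.conj_Q hq) (p.conj_Q (Q.inv_mem hq))

theorem LEP.mem_normalizer_Q' (p : LEP Q Q' z z') {V : Subgroup G} (hV : ∀ x, x ∈ V ↔ VV z z' x)
    {q : G} (hq : q ∈ Q') : q ∈ Subgroup.normalizer (V : Set G) :=
  p.Q_le_normalizer hV (p.conj_Q' hq) (p.conj_Q' (Q'.inv_mem hq))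

/-- Surjectivity. -/
theorem LEP.phi_surj (p : LEP Q Q' z z') {V : Subgroup G} (hV : ∀ x, x ∈ V ↔ VV z z' x)
    (φ : Subgroup.normalizer (V : Set G) →* Equiv.Perm (Fin 3))
    (hφ : ∀ (x : Subgroup.normalizer (V : Set G)) (i : Fin 3),
        (x : G) * tvv z z' i * (x : G)⁻¹ = tvv z z' (φ x i))
    {q y : G} (hq : q ∈ Q) (hqe : q * z' = z * (z' * q)) (hy : y ∈ Q') (hye : y * z = z' * (z * y)) :
    φ ⟨q, p.mem_normalizer_Q hV hq⟩ = Equiv.swap 1 2 ∧ φ ⟨y, p.mem_normalizer_Q' hV hy⟩ = Equiv.swap 0 2 := by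
  constructor
  · ext i
    apply congrArg _ (p.tvv_inj _)
    rw [← hφ ⟨q, p.mem_normalizer_Q hV hq⟩ i]
    exact p.conj_toggle hq hqe i
  · ext i
    apply congrArg _ (p.tvv_inj _)
    rw [← hφ ⟨y, p.mem_normalizer_Q' hV hy⟩ i]
    exact p.conj_toggle' hy hye i

theorem LEP.exists_y (p : LEP Q Q' z z') : ∃ y ∈ Q', y * z = z' * (z * y) := p.symm.exists_q

theorem LEP.relIndex_eq (p : LEP Q Q' z z') {V : Subgroup G} (hV : ∀ x, x ∈ V ↔ VV z z' x) :
    (Subgroup.centralizer (V : Set G)).relIndex (Subgroup.normalizer (V : Set G)) = 6 := by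
  obtain ⟨φ, hφ, hk⟩ := p.exists_phi hV
  obtain ⟨q, hq, hqe⟩ := p.exists_q
  obtain ⟨y, hy, hye⟩ := p.exists_y
  obtain ⟨h1, h2⟩ := p.phi_surj hV φ hφ hq hqe hy hye
  have hsurj : Function.Surjective φ := by
    intro σ
    set qq : Subgroup.normalizer (V : Set G) := ⟨q, p.mem_normalizer_Q hV hq⟩
    set yy : Subgroup.normalizer (V : Set G) := ⟨y, p.mem_normalizer_Q' hV hy⟩
    rcases perm3_closure _ _ h1 h2 σ with rfl | rfl | rfl | rfl | rfl | rfl
    · exact ⟨1, map_one φ⟩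
    · exact ⟨qq, rfl⟩
    · exact ⟨yy, rfl⟩
    · exact ⟨qq * yy, map_mul φ _ _⟩
    · exact ⟨yy * qq, map_mul φ _ _⟩
    · exact ⟨qq * yy * qq, by rw [map_mul, map_mul]⟩
  have hker : (Subgroup.centralizer (V : Set G)).subgroupOf (Subgroup.normalizer (V : Set G)) = φ.ker := by
    ext x
    rw [Subgroup.mem_subgroupOf, MonoidHom.mem_ker, hk]
  rw [Subgroup.relIndex, hker, Subgroup.index_ker, MonoidHom.range_eq_top.2 hsurj, Subgroup.card_top,
    Nat.card_eq_fintype_card, Fintype.card_perm, Fintype.card_fin]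
  rfl

end E

end Cfsg.Agent.H25
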