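import Cfsg.Agent.Lib.H25.LE5
set_option autoImplicit false
set_option linter.style.haveILetI false

/-! Large extraspecial `2`-subgroups: the radical `R`. -/

namespace Cfsg.Agent.H25

section E
variable {G : Type*} [Group G] {Q Q' : Subgroup G} {z z' : G}

/-- Normalizer closure under sups. -/
theorem conj_sup_mem (N A B : Subgroup G) (hA : ∀ a ∈ A, ∀ r ∈ N, a * r * a⁻¹ ∈ N)
    (hB : ∀ a ∈ B, ∀ r ∈ N, a * r * a⁻¹ ∈ N) : ∀ x ∈ A ⊔ B, ∀ r ∈ N, x * r * x⁻¹ ∈ N := by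
  have h0 : ∀ C : Subgroup G, (∀ a ∈ C, ∀ r ∈ N, a * r * a⁻¹ ∈ N) → C ≤ Subgroup.normalizer (N : Set G) := by
    intro C hC a ha
    rw [Subgroup.mem_normalizer_iff]
    intro r
    refine ⟨hC a ha r, fun hr => ?_⟩
    have := hC a⁻¹ (C.inv_mem ha) _ hr
    have e : a⁻¹ * (a * r * a⁻¹) * a⁻¹⁻¹ = r := by group
    rwa [e] at this
  intro x hx r hr
  have h1 : A ⊔ B ≤ Subgroup.normalizer (N : Set G) := sup_le (h0 A hA) (h0 B hB)
  exact (Subgroup.mem_normalizer_iff.1 (h1 hx) r).1 hr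

/-- Conjugates of elements of a sup. -/
theorem conj_mem_sup (N A B : Subgroup G) (x : G) (hA : ∀ a ∈ A, x * a * x⁻¹ ∈ N)
    (hB : ∀ a ∈ B, x * a * x⁻¹ ∈ N) : ∀ r ∈ A ⊔ B, x * r * x⁻¹ ∈ N := by
  intro r hr
  have h1 : A ⊔ B ≤ N.comap (MulAut.conj x).toMonoidHom := by
    refine sup_le ?_ ?_
    · intro a ha
      simpa [MulAut.conj_apply] using hA a ha
    · intro a ha
      simpa [MulAut.conj_apply] using hB a ha
  simpa [MulAut.conj_apply] using h1 hr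

/-- `C_Q(z')`. -/
def LU (Q : Subgroup G) (w : G) : Subgroup G := Q ⊓ Subgroup.centralizer ({w} : Set G)

theorem mem_LU {w a : G} : a ∈ LU Q w ↔ a ∈ Q ∧ a * w = w * a := by
  rw [LU, Subgroup.mem_inf, Subgroup.mem_centralizer_singleton_iff]

theorem LEP.z_mem_LU (p : LEP Q Q' z z') : z ∈ LU Q z' := mem_LU.2 ⟨p.h.z_mem, p.comm⟩
theorem LEP.z'_mem_LU (p : LEP Q Q' z z') : z' ∈ LU Q z' := mem_LU.2 ⟨p.mem, rfl⟩
theorem LEP.z_mem_LU' (p : LEP Q Q' z z') : z ∈ LU Q' z := mem_LU.2 ⟨p.mem', rfl⟩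
theorem LEP.z'_mem_LU' (p : LEP Q Q' z z') : z' ∈ LU Q' z := mem_LU.2 ⟨p.h'.z_mem, p.comm.symm⟩

theorem LEP.E_le_LU (p : LEP Q Q' z z') : Q ⊓ Q' ≤ LU Q z' := by
  intro a ha
  exact mem_LU.2 ⟨ha.1, p.h'.z_comm a ha.2⟩

theorem LEP.E_le_LU' (p : LEP Q Q' z z') : Q ⊓ Q' ≤ LU Q' z := by
  intro a ha
  exact mem_LU.2 ⟨ha.2, p.h.z_comm a ha.1⟩

theorem LEP.LU_inf (p : LEP Q Q' z z') : LU Q' z ⊓ LU Q z' = Q ⊓ Q' := by
  apply le_antisymm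
  · intro a ha
    exact ⟨(mem_LU.1 ha.2).1, (mem_LU.1 ha.1).1⟩
  · exact le_inf p.E_le_LU' p.E_le_LU

/-- `[U, U'] ≤ E`. -/
theorem LEP.comm_LU (p : LEP Q Q' z z') {u u' : G} (hu : u ∈ LU Q z') (hu' : u' ∈ LU Q' z) :
    u * u' * u⁻¹ * u'⁻¹ ∈ Q ⊓ Q' := by
  obtain ⟨hu1, hu2⟩ := mem_LU.1 hu
  obtain ⟨hu1', hu2'⟩ := mem_LU.1 hu'
  constructor
  · have : u * u' * u⁻¹ * u'⁻¹ = u * (u' * u⁻¹ * u'⁻¹) := by group
    rw [SetLike.mem_coe, this]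
    exact Q.mul_mem hu1 (p.h.norm u' hu2' _ (Q.inv_mem hu1))
  · exact Q'.mul_mem (p.h'.norm u hu2 _ hu1') (Q'.inv_mem hu1')

/-- Commutators in `U`. -/
theorem LEP.comm_U (p : LEP Q Q' z z') {a b : G} (ha : a ∈ Q) (hb : b ∈ Q) :
    a * b * a⁻¹ * b⁻¹ = 1 ∨ a * b * a⁻¹ * b⁻¹ = z := by
  rcases p.h.comm a ha b hb with e | e
  · left; rw [e]; group
  · right
    rw [e]
    group

/-- The relation `x ≡ y` modulo `E`: closure properties for a normal-under `R` subgroup. -/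
theorem LEP.E_mem_z (p : LEP Q Q' z z') : z ∈ Q ⊓ Q' := ⟨p.h.z_mem, p.mem'⟩
theorem LEP.E_mem_z' (p : LEP Q Q' z z') : z' ∈ Q ⊓ Q' := ⟨p.mem, p.h'.z_mem⟩

/-- `R` normalizes `E`. -/
theorem LEP.norm_E_U (p : LEP Q Q' z z') {u : G} (hu : u ∈ LU Q z') {a : G} (ha : a ∈ Q ⊓ Q') :
    u * a * u⁻¹ ∈ Q ⊓ Q' := by
  obtain ⟨hu1, hu2⟩ := mem_LU.1 hu
  exact ⟨Q.mul_mem (Q.mul_mem hu1 ha.1) (Q.inv_mem hu1), p.h'.norm u hu2 a ha.2⟩

theorem LEP.norm_E_U' (p : LEP Q Q' z z') {u : G} (hu : u ∈ LU Q' z) {a : G} (ha : a ∈ Q ⊓ Q') :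
    u * a * u⁻¹ ∈ Q ⊓ Q' := by
  obtain ⟨hu1, hu2⟩ := mem_LU.1 hu
  exact ⟨p.h.norm u hu2 a ha.1, Q'.mul_mem (Q'.mul_mem hu1 ha.2) (Q'.inv_mem hu1)⟩

/-- The group `R`. -/
def LR (Q Q' : Subgroup G) (z z' : G) : Subgroup G := LU Q' z ⊔ LU Q z'

theorem LEP.norm_E_R (p : LEP Q Q' z z') {x : G} (hx : x ∈ LR Q Q' z z') :
    ∀ a ∈ Q ⊓ Q', x * a * x⁻¹ ∈ Q ⊓ Q' :=
  conj_sup_mem (Q ⊓ Q') _ _ (fun _ hu _ hr => p.norm_E_U' hu hr) (fun _ hu _ hr => p.norm_E_U hu hr) x hx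

/-- The subgroup of elements normalizing `E` whose commutator with a fixed `a` is in `E`. -/
def comE (E : Subgroup G) (a : G) : Subgroup G where
  carrier := {x | (∀ e ∈ E, x * e * x⁻¹ ∈ E) ∧ (∀ e ∈ E, x⁻¹ * e * x ∈ E) ∧ x * a * x⁻¹ * a⁻¹ ∈ E}
  mul_mem' := by
    rintro x y ⟨h1, h2, h3⟩ ⟨h4, h5, h6⟩
    refine ⟨fun e he => ?_, fun e he => ?_, ?_⟩
    · have := h1 _ (h4 e he)
      have e1 : x * (y * e * y⁻¹) * x⁻¹ = x * y * e * (x * y)⁻¹ := by group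
      rwa [e1] at this
    · have := h5 _ (h2 e he)
      have e1 : y⁻¹ * (x⁻¹ * e * x) * y = (x * y)⁻¹ * e * (x * y) := by group
      rwa [e1] at this
    · have := E.mul_mem (h1 _ h6) h3
      have e1 : x * (y * a * y⁻¹ * a⁻¹) * x⁻¹ * (x * a * x⁻¹ * a⁻¹) = x * y * a * (x * y)⁻¹ * a⁻¹ := by group
      rwa [e1] at this
  one_mem' := ⟨fun e he => by simpa using he, fun e he => by simpa using he, by simp⟩
  inv_mem' := by
    rintro x ⟨h1, h2, h3⟩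
    refine ⟨fun e he => ?_, fun e he => ?_, ?_⟩
    · simpa using h2 e he
    · simpa using h1 e he
    · have := h2 _ (E.inv_mem h3)
      have e1 : x⁻¹ * (x * a * x⁻¹ * a⁻¹)⁻¹ * x = x⁻¹ * a * x⁻¹⁻¹ * a⁻¹ := by group
      rwa [e1] at this

theorem LEP.R_norm_E (p : LEP Q Q' z z') {x : G} (hx : x ∈ LR Q Q' z z') {e : G} (he : e ∈ Q ⊓ Q') :
    x⁻¹ * e * x ∈ Q ⊓ Q' := by
  have := p.norm_E_R ((LR Q Q' z z').inv_mem hx) e he
  simpa using this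

/-- Commutators of `R` lie in `E`: a generator on the right. -/
theorem LEP.comm_R_gen (p : LEP Q Q' z z') {a : G}
    (ha1 : ∀ u ∈ LU Q z', u * a * u⁻¹ * a⁻¹ ∈ Q ⊓ Q') (ha2 : ∀ u ∈ LU Q' z, u * a * u⁻¹ * a⁻¹ ∈ Q ⊓ Q') :
    ∀ x ∈ LR Q Q' z z', x * a * x⁻¹ * a⁻¹ ∈ Q ⊓ Q' := by
  have hle : LR Q Q' z z' ≤ comE (Q ⊓ Q') a := by
    refine sup_le ?_ ?_
    · intro u hu
      have hu' : u ∈ LR Q Q' z z' := Subgroup.mem_sup_left hu
      exact ⟨fun e he => p.norm_E_R hu' e he, fun e he => p.R_norm_E hu' he, ha2 u hu⟩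
    · intro u hu
      have hu' : u ∈ LR Q Q' z z' := Subgroup.mem_sup_right hu
      exact ⟨fun e he => p.norm_E_R hu' e he, fun e he => p.R_norm_E hu' he, ha1 u hu⟩
  intro x hx
  exact (hle hx).2.2

theorem LEP.comm_R_of_E (p : LEP Q Q' z z') {a b : G} (h : a * b * a⁻¹ * b⁻¹ ∈ Q ⊓ Q') (hb : b ∈ LR Q Q' z z') :
    b * a * b⁻¹ * a⁻¹ ∈ Q ⊓ Q' := by
  have h1 := (Q ⊓ Q').inv_mem h
  have e : (a * b * a⁻¹ * b⁻¹)⁻¹ = b * a * b⁻¹ * a⁻¹ := by group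
  rwa [e] at h1

/-- `R/E` is abelian. -/
theorem LEP.comm_R (p : LEP Q Q' z z') : ∀ x ∈ LR Q Q' z z', ∀ y ∈ LR Q Q' z z',
    x * y * x⁻¹ * y⁻¹ ∈ Q ⊓ Q' := by
  -- commutators with generators
  have hE : ∀ a b : G, a * b * a⁻¹ * b⁻¹ ∈ Q ⊓ Q' → b * a * b⁻¹ * a⁻¹ ∈ Q ⊓ Q' := by
    intro a b h
    have h1 := (Q ⊓ Q').inv_mem h
    have e : (a * b * a⁻¹ * b⁻¹)⁻¹ = b * a * b⁻¹ * a⁻¹ := by group
    rwa [e] at h1
  have hgen1 : ∀ u ∈ LU Q z', ∀ x ∈ LR Q Q' z z', x * u * x⁻¹ * u⁻¹ ∈ Q ⊓ Q' := by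
    intro u hu
    refine p.comm_R_gen ?_ ?_
    · intro v hv
      obtain ⟨hv1, _⟩ := mem_LU.1 hv
      obtain ⟨hu1, _⟩ := mem_LU.1 hu
      rcases p.comm_U hv1 hu1 with e | e
      · rw [e]; exact (Q ⊓ Q').one_mem
      · rw [e]; exact p.E_mem_z
    · intro v hv
      exact hE _ _ (p.comm_LU hu hv)
  have hgen2 : ∀ u ∈ LU Q' z, ∀ x ∈ LR Q Q' z z', x * u * x⁻¹ * u⁻¹ ∈ Q ⊓ Q' := by
    intro u hu
    refine p.comm_R_gen ?_ ?_
    · intro v hv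
      exact p.comm_LU hv hu
    · intro v hv
      obtain ⟨hv1, _⟩ := mem_LU.1 hv
      obtain ⟨hu1, _⟩ := mem_LU.1 hu
      rcases p.symm.comm_U hv1 hu1 with e | e
      · rw [e]; exact (Q ⊓ Q').one_mem
      · rw [e]; exact p.E_mem_z'
  intro x hx y
  refine fun hy => ?_
  have hle : LR Q Q' z z' ≤ comE (Q ⊓ Q') x := by
    refine sup_le ?_ ?_
    · intro u hu
      have hu' : u ∈ LR Q Q' z z' := Subgroup.mem_sup_left hu
      exact ⟨fun e he => p.norm_E_R hu' e he, fun e he => p.R_norm_E hu' he, hE _ _ (hgen2 u hu x hx)⟩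
    · intro u hu
      have hu' : u ∈ LR Q Q' z z' := Subgroup.mem_sup_right hu
      exact ⟨fun e he => p.norm_E_R hu' e he, fun e he => p.R_norm_E hu' he, hE _ _ (hgen1 u hu x hx)⟩
  exact hE _ _ (hle hy).2.2

/-- Squares in `R` lie in `E`. -/
theorem LEP.sq_R (p : LEP Q Q' z z') : ∀ x ∈ LR Q Q' z z', x * x ∈ Q ⊓ Q' := by
  let S : Subgroup G :=
    { carrier := {x | x ∈ LR Q Q' z z' ∧ x * x ∈ Q ⊓ Q'}
      mul_mem' := by
        rintro a b ⟨ha, ha2⟩ ⟨hb, hb2⟩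
        refine ⟨(LR Q Q' z z').mul_mem ha hb, ?_⟩
        have h1 := p.comm_R _ ((LR Q Q' z z').inv_mem ha) _ hb
        have h2 := (Q ⊓ Q').mul_mem ((Q ⊓ Q').mul_mem ha2 h1) hb2
        have e : a * a * (a⁻¹ * b * a⁻¹⁻¹ * b⁻¹) * (b * b) = a * b * (a * b) := by group
        rwa [e] at h2
      one_mem' := ⟨(LR Q Q' z z').one_mem, by simp [(Q ⊓ Q').one_mem]⟩
      inv_mem' := by
        rintro a ⟨ha, ha2⟩
        refine ⟨(LR Q Q' z z').inv_mem ha, ?_⟩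
        have h1 := (Q ⊓ Q').inv_mem ha2
        have e : (a * a)⁻¹ = a⁻¹ * a⁻¹ := by group
        rwa [e] at h1 }
  have hle : LR Q Q' z z' ≤ S := by
    refine sup_le ?_ ?_
    · intro u hu
      obtain ⟨hu1, _⟩ := mem_LU.1 hu
      refine ⟨Subgroup.mem_sup_left hu, ?_⟩
      rcases p.h'.sq u hu1 with e | e
      · rw [e]; exact (Q ⊓ Q').one_mem
      · rw [e]; exact p.E_mem_z'
    · intro u hu
      obtain ⟨hu1, _⟩ := mem_LU.1 hu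
      refine ⟨Subgroup.mem_sup_right hu, ?_⟩
      rcases p.h.sq u hu1 with e | e
      · rw [e]; exact (Q ⊓ Q').one_mem
      · rw [e]; exact p.E_mem_z
  intro x hx
  exact (hle hx).2

/-- `R` centralizes `V`. -/
theorem LEP.R_comm_z (p : LEP Q Q' z z') : ∀ x ∈ LR Q Q' z z', x * z = z * x := by
  have hle : LR Q Q' z z' ≤ Subgroup.centralizer ({z} : Set G) := by
    refine sup_le ?_ ?_
    · intro u hu
      exact (Subgroup.mem_centralizer_singleton_iff.2 (mem_LU.1 hu).2)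
    · intro u hu
      exact (Subgroup.mem_centralizer_singleton_iff.2 (p.h.z_comm u (mem_LU.1 hu).1))
  intro x hx
  exact Subgroup.mem_centralizer_singleton_iff.1 (hle hx)

theorem LEP.LR_symm (p : LEP Q Q' z z') : LR Q' Q z' z = LR Q Q' z z' := sup_comm _ _

theorem LEP.R_comm_z' (p : LEP Q Q' z z') : ∀ x ∈ LR Q Q' z z', x * z' = z' * x := by
  intro x hx
  rw [← p.LR_symm] at hx
  exact p.symm.R_comm_z x hx

theorem LEP.z_mem_R (p : LEP Q Q' z z') : z ∈ LR Q Q' z z' := Subgroup.mem_sup_right p.z_mem_LU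
theorem LEP.z'_mem_R (p : LEP Q Q' z z') : z' ∈ LR Q Q' z z' := Subgroup.mem_sup_left p.z'_mem_LU'

/-- The elements of `R` commute with `V`. -/
theorem LEP.VV_mem_R (p : LEP Q Q' z z') {x : G} (hx : VV z z' x) : x ∈ LR Q Q' z z' := by
  rcases hx with rfl | rfl | rfl | rfl
  · exact Subgroup.one_mem _
  · exact p.z_mem_R
  · exact p.z'_mem_R
  · exact Subgroup.mul_mem _ p.z_mem_R p.z'_mem_R

/-- Exponent four. -/
theorem LEP.R_pow_four (p : LEP Q Q' z z') {x : G} (hx : x ∈ LR Q Q' z z') : x ^ 4 = 1 := by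
  have h1 := p.sq_R x hx
  have h2 := p.sq_E h1.1 h1.2
  rw [show (4 : ℕ) = 2 + 2 from rfl, pow_add, pow_two]
  exact h2

/-- `[X, E] ≤ V`, one element at a time. -/
theorem LEP.comm_X_E (p : LEP Q Q' z z') {V : Subgroup G} (hV : ∀ x, x ∈ V ↔ VV z z' x) :
    ∀ x ∈ Q ⊔ Q', ∀ a ∈ Q ⊓ Q', x * a * x⁻¹ * a⁻¹ ∈ V := by
  let T : Subgroup G :=
    { carrier := {x | x ∈ Subgroup.normalizer (V : Set G) ∧ ∀ a ∈ Q ⊓ Q', x * a * x⁻¹ * a⁻¹ ∈ V}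
      mul_mem' := by
        rintro x y ⟨h1, h3⟩ ⟨h4, h6⟩
        refine ⟨Subgroup.mul_mem _ h1 h4, fun a ha => ?_⟩
        have h7 := (Subgroup.mem_normalizer_iff.1 h1 _).1 (h6 a ha)
        have h8 := V.mul_mem h7 (h3 a ha)
        have e : x * (y * a * y⁻¹ * a⁻¹) * x⁻¹ * (x * a * x⁻¹ * a⁻¹) = x * y * a * (x * y)⁻¹ * a⁻¹ := by group
        rwa [e] at h8
      one_mem' := by
        refine ⟨Subgroup.one_mem _, fun a _ => ?_⟩
        simp [V.one_mem]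
      inv_mem' := by
        rintro x ⟨h1, h3⟩
        refine ⟨Subgroup.inv_mem _ h1, fun a ha => ?_⟩
        have h7 := (Subgroup.mem_normalizer_iff.1 (Subgroup.inv_mem _ h1) _).1 (V.inv_mem (h3 a ha))
        have e : x⁻¹ * (x * a * x⁻¹ * a⁻¹)⁻¹ * x⁻¹⁻¹ = x⁻¹ * a * x⁻¹⁻¹ * a⁻¹ := by group
        rwa [e] at h7 }
  have hle : Q ⊔ Q' ≤ T := by
    refine sup_le ?_ ?_
    · intro q hq
      refine ⟨p.mem_normalizer_Q hV hq, fun a ha => ?_⟩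
      rcases p.comm_U hq ha.1 with e | e
      · rw [e]; exact V.one_mem
      · rw [e]; exact (hV _).2 (Or.inr (Or.inl rfl))
    · intro q hq
      refine ⟨p.mem_normalizer_Q' hV hq, fun a ha => ?_⟩
      rcases p.symm.comm_U hq ha.2 with e | e
      · rw [e]; exact V.one_mem
      · rw [e]; exact (hV _).2 (Or.inr (Or.inr (Or.inl rfl)))
  intro x hx
  exact (hle hx).2

/-- The structure of `R`. -/
theorem LEP.main31 (p : LEP Q Q' z z') {V : Subgroup G} (hV : ∀ x, x ∈ V ↔ VV z z' x) :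
    (Subgroup.center ↥(LR Q Q' z z')).map (LR Q Q' z z').subtype = V ∧
    Q ⊓ Q' ≤ (Subgroup.upperCentralSeries ↥(LR Q Q' z z') 2).map (LR Q Q' z z').subtype ∧
    Subgroup.upperCentralSeries ↥(LR Q Q' z z') 3 = ⊤ ∧
    Cfsg.IsElementaryAbelian 2 (Q ⊓ Q') ∧
    (∀ x ∈ LR Q Q' z z', ∀ y ∈ LR Q Q' z z', x * y * x⁻¹ * y⁻¹ ∈ Q ⊓ Q' ∧ x ^ 2 ∈ Q ⊓ Q') ∧
    LU Q' z ⊓ LU Q z' = Q ⊓ Q' ∧ ⁅Q ⊔ Q', Q ⊓ Q'⁆ ≤ V := by
  set R := LR Q Q' z z' with hRdef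
  have hRz : ∀ x ∈ R, x * z = z * x := p.R_comm_z
  have hRz' : ∀ x ∈ R, x * z' = z' * x := p.R_comm_z'
  have hVcen : ∀ v, VV z z' v → ∀ x ∈ R, v * x = x * v := by
    rintro v (rfl | rfl | rfl | rfl) x hx
    · group
    · exact (hRz x hx).symm
    · exact (hRz' x hx).symm
    · calc z * z' * x = z * (z' * x) := by group
        _ = z * (x * z') := by rw [hRz' x hx]
        _ = (z * x) * z' := by group
        _ = (x * z) * z' := by rw [hRz x hx]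
        _ = _ := by group
  have hcenV : ∀ c : R, c ∈ Subgroup.center ↥R ↔ VV z z' (c : G) := by
    intro c
    constructor
    · intro hc
      refine p.cen_U (fun u hu huz => ?_)
      have h1 : u ∈ R := Subgroup.mem_sup_right (mem_LU.2 ⟨hu, huz⟩)
      have h2 := (Subgroup.mem_center_iff.1 hc) ⟨u, h1⟩
      exact (congrArg Subtype.val h2).symm
    · intro hc
      rw [Subgroup.mem_center_iff]
      intro y
      exact Subtype.ext (hVcen _ hc _ y.2).symm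
  have hc1 := p.comm_X_E hV
  have hRX : R ≤ Q ⊔ Q' := by
    refine sup_le ?_ ?_
    · exact le_trans inf_le_left le_sup_right
    · exact le_trans inf_le_left le_sup_left
  have hER : Q ⊓ Q' ≤ R := le_trans p.E_le_LU le_sup_right
  have hZ2 : ∀ a (ha : a ∈ Q ⊓ Q'), (⟨a, hER ha⟩ : R) ∈ Subgroup.upperCentralSeries ↥R 2 := by
    intro a ha
    rw [show (2 : ℕ) = 1 + 1 from rfl, Subgroup.mem_upperCentralSeries_succ_iff,
      Subgroup.upperCentralSeries_one]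
    intro y
    rw [hcenV]
    have h1 := hc1 y (hRX y.2) a ha
    have h2 := V.inv_mem h1
    have e : ((y : G) * a * (y : G)⁻¹ * a⁻¹)⁻¹ = a * y * a⁻¹ * (y : G)⁻¹ := by group
    rw [e] at h2
    exact (hV _).1 h2
  refine ⟨?_, ?_, ?_, ?_, ?_, p.LU_inf, ?_⟩
  · ext x
    constructor
    · rintro ⟨c, hc, rfl⟩
      exact (hV _).2 ((hcenV c).1 hc)
    · intro hx
      have hx' := (hV x).1 hx
      exact ⟨⟨x, p.VV_mem_R hx'⟩, (hcenV _).2 hx', rfl⟩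
  · intro a ha
    exact ⟨⟨a, hER ha⟩, hZ2 a ha, rfl⟩
  · rw [eq_top_iff]
    intro x _
    rw [show (3 : ℕ) = 2 + 1 from rfl, Subgroup.mem_upperCentralSeries_succ_iff]
    intro y
    have h1 := p.comm_R x x.2 y y.2
    exact hZ2 _ h1
  · refine ⟨?_, fun a ha => ?_⟩
    · exact ⟨⟨fun a b => Subtype.ext (p.comm_E a.2.1 a.2.2 b.2.1 b.2.2)⟩⟩
    · rw [pow_two]
      exact p.sq_E ha.1 ha.2
  · intro x hx y hy
    refine ⟨p.comm_R x hx y hy, ?_⟩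
    rw [pow_two]
    exact p.sq_R x hx
  · rw [Subgroup.commutator_le]
    intro x hx a ha
    exact hc1 x hx a ha

end E

end Cfsg.Agent.H25
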