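import Cfsg.Agent.Lib.H25.LE6
import Cfsg.Prelude.Def_MonsterType
set_option autoImplicit false
set_option linter.style.haveILetI false

/-! Large extraspecial `2`-subgroups: the setup from the statement's hypotheses. -/

namespace Cfsg.Agent.H25

section E
variable {G : Type*} [Group G] {Q Q' : Subgroup G} {z z' : G}

theorem LEP.of_large [Finite G] (Q : Subgroup G) (hQ : Cfsg.IsLargeExtraspecial Q) (z : G)
    (hz : ((Subgroup.center ↥Q).map Q.subtype) = Subgroup.zpowers z) (hz2 : orderOf z = 2)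
    (w : ℕ) (hw : 2 ≤ w) (hcard : Nat.card ↥Q = 2 ^ (2 * w + 1)) (g : G)
    (hgH : g ∉ Subgroup.centralizer ({z} : Set G)) (hgQ : g * z * g⁻¹ ∈ Q) :
    LEP Q (Q.map (MulAut.conj g).toMonoidHom) z (g * z * g⁻¹) ∧
    (∀ h : G, h * z * h⁻¹ = g * z * g⁻¹ → ∀ a ∈ Q, h * a * h⁻¹ ∈ Q.map (MulAut.conj g).toMonoidHom) ∧
    (∀ h : G, h * (g * z * g⁻¹) * h⁻¹ = z → ∀ a ∈ Q.map (MulAut.conj g).toMonoidHom, h * a * h⁻¹ ∈ Q) := by
  obtain ⟨hL1, hL2, hL3, -⟩ := hQ
  obtain ⟨z₀, hQ₀, hZ⟩ := LE.of_hyps Q hL1 hL2 hL3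
  have hzz : z = z₀ := by
    have h1 : z ∈ (Subgroup.center ↥Q).map Q.subtype := by
      rw [hz]; exact Subgroup.mem_zpowers z
    rcases (hZ z).1 h1 with e | e
    · exfalso
      rw [e, orderOf_one] at hz2
      omega
    · exact e
  subst hzz
  have hne : g * z * g⁻¹ ≠ z := by
    intro e
    apply hgH
    rw [Subgroup.mem_centralizer_singleton_iff]
    exact mul_inv_eq_iff_eq_mul.1 e
  have hc : 8 < Nat.card Q := by
    rw [hcard]
    calc 8 < 2 ^ 5 := by norm_num
      _ ≤ 2 ^ (2 * w + 1) := Nat.pow_le_pow_right (by norm_num) (by omega)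
  exact hQ₀.pair g hgQ hne hc

theorem LEP.closure_iff (p : LEP Q Q' z z') (x : G) :
    x ∈ Subgroup.closure ({z, z'} : Set G) ↔ VV z z' x := by
  constructor
  · intro hx
    have hle : Subgroup.closure ({z, z'} : Set G) ≤ p.VVs := by
      rw [Subgroup.closure_le]
      rintro a (rfl | rfl)
      · exact Or.inr (Or.inl rfl)
      · exact Or.inr (Or.inr (Or.inl rfl))
    exact hle hx
  · have h1 : z ∈ Subgroup.closure ({z, z'} : Set G) := Subgroup.subset_closure (Or.inl rfl)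
    have h2 : z' ∈ Subgroup.closure ({z, z'} : Set G) := Subgroup.subset_closure (Or.inr rfl)
    rintro (rfl | rfl | rfl | rfl)
    · exact Subgroup.one_mem _
    · exact h1
    · exact h2
    · exact Subgroup.mul_mem _ h1 h2

end E

end Cfsg.Agent.H25
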