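import Cfsg.Agent.Lib.H25.LE7
import Cfsg.Agent.Lib.H01.Fitting
set_option autoImplicit false
set_option linter.style.haveILetI false

/-! Large extraspecial `2`-subgroups: `X / R ≅ S₃`. -/

namespace Cfsg.Agent.H25

section E
variable {G : Type*} [Group G] {Q Q' : Subgroup G} {z z' : G}

theorem LEP.comm_tvv (_p : LEP Q Q' z z') {u : G} (h1 : u * z = z * u) (h2 : u * z' = z' * u) (j : Fin 3) :
    u * tvv z z' j = tvv z z' j * u := by
  fin_cases j
  · exact h1
  · exact h2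
  · show u * (z * z') = z * z' * u
    calc u * (z * z') = (u * z) * z' := by group
      _ = (z * u) * z' := by rw [h1]
      _ = z * (u * z') := by group
      _ = z * (z' * u) := by rw [h2]
      _ = _ := by group

/-- `Q` normalizes `R`. -/
theorem LEP.norm_R_Q (p : LEP Q Q' z z') : ∀ q ∈ Q, ∀ r ∈ LR Q Q' z z', q * r * q⁻¹ ∈ LR Q Q' z z' := by
  intro q hq
  apply conj_mem_sup
  · intro u hu
    obtain ⟨hu1, hu2⟩ := mem_LU.1 hu
    have huz' : u * z' = z' * u := p.h'.z_comm u hu1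
    have hc : q * u * q⁻¹ * u⁻¹ ∈ LU Q z' := by
      refine mem_LU.2 ⟨?_, ?_⟩
      · have : q * u * q⁻¹ * u⁻¹ = q * (u * q⁻¹ * u⁻¹) := by group
        rw [this]
        exact Q.mul_mem hq (p.h.norm u hu2 _ (Q.inv_mem hq))
      · obtain ⟨j, hj⟩ := p.conj_Q (Q.inv_mem hq) 1
        have hut := p.comm_tvv hu2 huz' j
        have hv : q⁻¹ * z' * q = tvv z z' j := by
          have : q⁻¹ * tvv z z' 1 * q⁻¹⁻¹ = q⁻¹ * z' * q := by
            show q⁻¹ * z' * q⁻¹⁻¹ = _
            group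
          rw [← this]
          exact hj
        have e1 : z' * q = q * tvv z z' j := by
          rw [← hv]; group
        have e2 : q * tvv z z' j * q⁻¹ = z' := by
          rw [← hv]; group
        have hui : u⁻¹ * z' = z' * u⁻¹ := by
          calc u⁻¹ * z' = u⁻¹ * (z' * u) * u⁻¹ := by group
            _ = u⁻¹ * (u * z') * u⁻¹ := by rw [huz']
            _ = _ := by group
        calc q * u * q⁻¹ * u⁻¹ * z' = q * u * q⁻¹ * (u⁻¹ * z') := by group
          _ = q * u * q⁻¹ * (z' * u⁻¹) := by rw [hui]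
          _ = q * u * (q⁻¹ * (z' * q)) * q⁻¹ * u⁻¹ := by group
          _ = q * u * (q⁻¹ * (q * tvv z z' j)) * q⁻¹ * u⁻¹ := by rw [e1]
          _ = q * (u * tvv z z' j) * q⁻¹ * u⁻¹ := by group
          _ = q * (tvv z z' j * u) * q⁻¹ * u⁻¹ := by rw [hut]
          _ = (q * tvv z z' j * q⁻¹) * (q * u * q⁻¹ * u⁻¹) := by group
          _ = _ := by rw [e2]
    have e : q * u * q⁻¹ = (q * u * q⁻¹ * u⁻¹) * u := by group
    rw [e]
    exact Subgroup.mul_mem _ (Subgroup.mem_sup_right hc) (Subgroup.mem_sup_left hu)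
  · intro u hu
    obtain ⟨hu1, hu2⟩ := mem_LU.1 hu
    apply Subgroup.mem_sup_right
    refine mem_LU.2 ⟨Q.mul_mem (Q.mul_mem hq hu1) (Q.inv_mem hq), ?_⟩
    rcases p.h.comm q hq u hu1 with e | e
    · have : q * u * q⁻¹ = u := by rw [e]; group
      rw [this]
      exact hu2
    · have : q * u * q⁻¹ = z * u := by rw [e]; group
      rw [this]
      calc z * u * z' = z * (u * z') := by group
        _ = z * (z' * u) := by rw [hu2]
        _ = (z * z') * u := by group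
        _ = (z' * z) * u := by rw [p.comm]
        _ = _ := by group

theorem LEP.norm_R_X (p : LEP Q Q' z z') : ∀ x ∈ Q ⊔ Q', ∀ r ∈ LR Q Q' z z', x * r * x⁻¹ ∈ LR Q Q' z z' := by
  refine conj_sup_mem _ _ _ p.norm_R_Q ?_
  intro q hq r hr
  rw [← p.LR_symm] at hr ⊢
  exact p.symm.norm_R_Q q hq r hr

theorem LEP.R_le_X (_p : LEP Q Q' z z') : LR Q Q' z z' ≤ Q ⊔ Q' := by
  refine sup_le ?_ ?_
  · exact le_trans inf_le_left le_sup_right
  · exact le_trans inf_le_left le_sup_left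

/-- The abstract list of the six elements. -/
theorem six_list {T : Type*} [Group T] (a b : T) (ha : a * a = 1) (hb : b * b = 1) (hab : a * b * a = b * a * b) :
    (∀ t : T, (t = 1 ∨ t = a ∨ t = b ∨ t = a * b ∨ t = b * a ∨ t = a * b * a) →
      (a * t = 1 ∨ a * t = a ∨ a * t = b ∨ a * t = a * b ∨ a * t = b * a ∨ a * t = a * b * a)) ∧
    (∀ t : T, (t = 1 ∨ t = a ∨ t = b ∨ t = a * b ∨ t = b * a ∨ t = a * b * a) →
      (b * t = 1 ∨ b * t = a ∨ b * t = b ∨ b * t = a * b ∨ b * t = b * a ∨ b * t = a * b * a)) := by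
  constructor
  · rintro t (rfl | rfl | rfl | rfl | rfl | rfl)
    · right; left; group
    · left; exact ha
    · right; right; right; left; rfl
    · right; right; left; rw [← mul_assoc, ha, one_mul]
    · right; right; right; right; right; group
    · right; right; right; right; left
      rw [← mul_assoc, ← mul_assoc, ha, one_mul]
  · rintro t (rfl | rfl | rfl | rfl | rfl | rfl)
    · right; right; left; group
    · right; right; right; right; left; rfl
    · left; exact hb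
    · right; right; right; right; right
      rw [hab]; group
    · right; left; rw [← mul_assoc, hb, one_mul]
    · right; right; right; left
      rw [hab, ← mul_assoc, ← mul_assoc, hb, one_mul]

set_option maxRecDepth 100000 in
theorem perm3_core : ∀ σ : Equiv.Perm (Fin 3), σ ≠ 1 →
    ∃ ρ : Equiv.Perm (Fin 3), (σ * (ρ * σ * ρ⁻¹)) ^ 3 = 1 ∧ σ * (ρ * σ * ρ⁻¹) ≠ 1 := by
  decide

/-- The swap relation. -/
theorem LEP.swap_rel (p : LEP Q Q' z z')
    (htr : ∀ h : G, h * z * h⁻¹ = z' → ∀ a ∈ Q, h * a * h⁻¹ ∈ Q')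
    {q y : G} (hq : q ∈ Q) (hqe : q * z' = z * (z' * q)) (hy : y ∈ Q') (hye : y * z = z' * (z * y)) :
    y⁻¹ * ((q * y * q⁻¹) * q * (q * y * q⁻¹)⁻¹) ∈ LU Q' z := by
  have hz2 := p.h.z_sq
  have hz'2 := p.h'.z_sq
  have hqz : q * z * q⁻¹ = z := by rw [p.h.z_comm q hq]; group
  have hqz' : q * z' * q⁻¹ = z * z' := by rw [hqe]; group
  have hqiz : q⁻¹ * z * q = z := by
    have : q * z = z * q := p.h.z_comm q hq
    calc q⁻¹ * z * q = q⁻¹ * (z * q) := by group
      _ = q⁻¹ * (q * z) := by rw [this]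
      _ = z := by group
  have hqiz' : q⁻¹ * z' * q = z * z' := by
    have h1 := p.conj_toggle (Q.inv_mem hq)
    have h1 : z' * q = z * (q * z') := by
      rw [hqe, ← mul_assoc, hz2, one_mul]
    calc q⁻¹ * z' * q = q⁻¹ * (z' * q) := by group
      _ = q⁻¹ * (z * (q * z')) := by rw [h1]
      _ = q⁻¹ * ((z * q) * z') := by group
      _ = q⁻¹ * ((q * z) * z') := by rw [p.h.z_comm q hq]
      _ = z * z' := by group
  have hyz : y * z * y⁻¹ = z * z' := by
    rw [hye, p.comm]; group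
  have hyz' : y * z' * y⁻¹ = z' := by
    rw [p.h'.z_comm y hy]; group
  set h := q * y * q⁻¹ with hh
  have h1 : h * z * h⁻¹ = z' := by
    calc h * z * h⁻¹ = q * (y * (q⁻¹ * z * q) * y⁻¹) * q⁻¹ := by rw [hh]; group
      _ = q * (y * z * y⁻¹) * q⁻¹ := by rw [hqiz]
      _ = q * (z * z') * q⁻¹ := by rw [hyz]
      _ = (q * z * q⁻¹) * (q * z' * q⁻¹) := by group
      _ = z * (z * z') := by rw [hqz, hqz']
      _ = z' := by rw [← mul_assoc, hz2, one_mul]
  have h2 : h * z' * h⁻¹ = z := by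
    calc h * z' * h⁻¹ = q * (y * (q⁻¹ * z' * q) * y⁻¹) * q⁻¹ := by rw [hh]; group
      _ = q * (y * (z * z') * y⁻¹) * q⁻¹ := by rw [hqiz']
      _ = q * ((y * z * y⁻¹) * (y * z' * y⁻¹)) * q⁻¹ := by group
      _ = q * ((z * z') * z') * q⁻¹ := by rw [hyz, hyz']
      _ = q * z * q⁻¹ := by rw [mul_assoc z, hz'2, mul_one]
      _ = z := hqz
  have h3 : h * q * h⁻¹ ∈ Q' := htr h h1 q hq
  have hhiz : h⁻¹ * z * h = z' := by
    rw [← h2]; group
  have h4 : (h * q * h⁻¹) * z * (h * q * h⁻¹)⁻¹ = z * z' := by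
    calc (h * q * h⁻¹) * z * (h * q * h⁻¹)⁻¹ = h * (q * (h⁻¹ * z * h) * q⁻¹) * h⁻¹ := by group
      _ = h * (q * z' * q⁻¹) * h⁻¹ := by rw [hhiz]
      _ = h * (z * z') * h⁻¹ := by rw [hqz']
      _ = (h * z * h⁻¹) * (h * z' * h⁻¹) := by group
      _ = z' * z := by rw [h1, h2]
      _ = z * z' := p.comm.symm
  refine mem_LU.2 ⟨Q'.mul_mem (Q'.inv_mem hy) h3, ?_⟩
  calc y⁻¹ * (h * q * h⁻¹) * z = y⁻¹ * ((h * q * h⁻¹) * z * (h * q * h⁻¹)⁻¹) * (h * q * h⁻¹) := by group
    _ = y⁻¹ * (z * z') * (h * q * h⁻¹) := by rw [h4]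
    _ = y⁻¹ * (y * z * y⁻¹) * (h * q * h⁻¹) := by rw [hyz]
    _ = z * (y⁻¹ * (h * q * h⁻¹)) := by group

/-- The structure theorem for `X`. -/
theorem LEP.main30 [Finite G] (p : LEP Q Q' z z') {V : Subgroup G} (hV : ∀ x, x ∈ V ↔ VV z z' x)
    (htr : ∀ h : G, h * z * h⁻¹ = z' → ∀ a ∈ Q, h * a * h⁻¹ ∈ Q') :
    LR Q Q' z z' = (Q ⊔ Q') ⊓ Subgroup.centralizer (V : Set G) ∧
    LR Q Q' z z' = (Cfsg.pCore 2 ↥(Q ⊔ Q')).map (Q ⊔ Q').subtype ∧
    (∃ h : ((LR Q Q' z z').subgroupOf (Q ⊔ Q')).Normal,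
      Nonempty (↥(Q ⊔ Q') ⧸ (LR Q Q' z z').subgroupOf (Q ⊔ Q') ≃* Equiv.Perm (Fin 3))) ∧
    Subgroup.normalizer (V : Set G) = (Q ⊔ Q') ⊔ (Subgroup.centralizer ({z} : Set G) ⊓ Subgroup.centralizer (V : Set G)) ∧
    (∀ y ∈ Subgroup.normalizer (V : Set G), ∀ x ∈ Q ⊔ Q', y * x * y⁻¹ ∈ Q ⊔ Q') ∧
    LR Q Q' z z' ≤ Subgroup.centralizer ({z} : Set G) ⊓ Subgroup.centralizer (V : Set G) ∧
    (∀ x ∈ Q ⊔ Q', ∀ c ∈ Subgroup.centralizer ({z} : Set G) ⊓ Subgroup.centralizer (V : Set G),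
      x * c * x⁻¹ * c⁻¹ ∈ LR Q Q' z z') ∧
    (Q ⊔ Q') ⊓ (Subgroup.centralizer ({z} : Set G) ⊓ Subgroup.centralizer (V : Set G)) = LR Q Q' z z' := by
  classical
  set R := LR Q Q' z z' with hRdef
  set X := Q ⊔ Q' with hXdef
  set CV := Subgroup.centralizer (V : Set G) with hCV
  have hRX : R ≤ X := p.R_le_X
  have hzV : z ∈ V := (hV z).2 (Or.inr (Or.inl rfl))
  have hz'V : z' ∈ V := (hV z').2 (Or.inr (Or.inr (Or.inl rfl)))
  have hCVz : CV ≤ Subgroup.centralizer ({z} : Set G) := by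
    intro c hc
    rw [Subgroup.mem_centralizer_singleton_iff]
    exact ((Subgroup.mem_centralizer_iff.1 hc) z hzV).symm
  have hCVz' : ∀ c ∈ CV, c * z' = z' * c := by
    intro c hc
    exact ((Subgroup.mem_centralizer_iff.1 hc) z' hz'V).symm
  have hRCV : R ≤ CV := by
    intro x hx
    rw [hCV, p.mem_cen_iff hV]
    intro i
    have := p.comm_tvv (p.R_comm_z x hx) (p.R_comm_z' x hx) i
    rw [this]
    group
  have hXN : X ≤ Subgroup.normalizer (V : Set G) := by
    refine sup_le ?_ ?_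
    · intro q hq
      exact p.mem_normalizer_Q hV hq
    · intro q hq
      exact p.mem_normalizer_Q' hV hq
  have hRn : (R.subgroupOf X).Normal := by
    refine ⟨fun n hn g => ?_⟩
    rw [Subgroup.mem_subgroupOf] at hn ⊢
    exact p.norm_R_X g g.2 n hn
  obtain ⟨φ, hφ, hk⟩ := p.exists_phi hV
  obtain ⟨q, hq, hqe⟩ := p.exists_q
  obtain ⟨y, hy, hye⟩ := p.exists_y
  obtain ⟨ha₀, hb₀⟩ := p.phi_surj hV φ hφ hq hqe hy hye
  set φX : ↥X →* Equiv.Perm (Fin 3) := φ.comp (Subgroup.inclusion hXN) with hφX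
  have hqX : q ∈ X := Subgroup.mem_sup_left hq
  have hyX : y ∈ X := Subgroup.mem_sup_right hy
  set qq : ↥X := ⟨q, hqX⟩ with hqq
  set yy : ↥X := ⟨y, hyX⟩ with hyy
  have hφq : φX qq = Equiv.swap 1 2 := ha₀
  have hφy : φX yy = Equiv.swap 0 2 := hb₀
  have hsurj : Function.Surjective φX := by
    intro σ
    rcases perm3_closure _ _ hφq hφy σ with rfl | rfl | rfl | rfl | rfl | rfl
    · exact ⟨1, map_one φX⟩
    · exact ⟨qq, rfl⟩
    · exact ⟨yy, rfl⟩
    · exact ⟨qq * yy, map_mul φX _ _⟩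
    · exact ⟨yy * qq, map_mul φX _ _⟩
    · exact ⟨qq * yy * qq, by rw [map_mul, map_mul]⟩
  have hkX : ∀ x : ↥X, φX x = 1 ↔ (x : G) ∈ CV := fun x => hk ⟨x, hXN x.2⟩
  -- the quotient
  let π : ↥X →* ↥X ⧸ R.subgroupOf X := QuotientGroup.mk' _
  have hπ1 : ∀ x : ↥X, π x = 1 ↔ (x : G) ∈ R := by
    intro x
    rw [show π x = 1 ↔ x ∈ (QuotientGroup.mk' (R.subgroupOf X)).ker from MonoidHom.mem_ker.symm,
      QuotientGroup.ker_mk', Subgroup.mem_subgroupOf]
  have hπeq : ∀ a b : ↥X, (a : G)⁻¹ * b ∈ R → π a = π b := by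
    intro a b h
    have h1 : π (a⁻¹ * b) = 1 := (hπ1 _).2 (by simpa using h)
    rw [map_mul, map_inv] at h1
    exact inv_mul_eq_one.1 h1
  set a := π qq with ha
  set b := π yy with hb
  have hU : LU Q z' ≤ R := le_sup_right
  have hU' : LU Q' z ≤ R := le_sup_left
  have hzR : z ∈ R := p.z_mem_R
  have hz'R : z' ∈ R := p.z'_mem_R
  have haa : a * a = 1 := by
    rw [ha, ← map_mul]
    rw [hπ1]
    show q * q ∈ R
    rcases p.h.sq q hq with e | e
    · rw [e]; exact R.one_mem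
    · rw [e]; exact hzR
  have hbb : b * b = 1 := by
    rw [hb, ← map_mul]
    rw [hπ1]
    show y * y ∈ R
    rcases p.h'.sq y hy with e | e
    · rw [e]; exact R.one_mem
    · rw [e]; exact hz'R
  have hab : a * b * a = b * a * b := by
    have hrel := p.swap_rel htr hq hqe hy hye
    have h1 : π yy = π (qq * yy * qq⁻¹ * qq * (qq * yy * qq⁻¹)⁻¹) := by
      apply hπeq
      exact hU' hrel
    have hai : a⁻¹ = a := inv_eq_of_mul_eq_one_left haa
    have hbi : b⁻¹ = b := inv_eq_of_mul_eq_one_left hbb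
    simp only [map_mul, map_inv, mul_inv_rev, inv_inv] at h1
    rw [← ha, ← hb, hai, hbi] at h1
    -- `b = a b a a a b a`
    have h2 : b = a * b * a * b * a := by
      calc b = a * b * a * a * (a * (b * a)) := h1
        _ = a * b * (a * a) * a * b * a := by group
        _ = a * b * a * b * a := by rw [haa]; group
    calc a * b * a = (a * b * a * b * a) * (b * a)⁻¹ := by group
      _ = b * (b * a)⁻¹ := by rw [← h2]
      _ = b * (a⁻¹ * b⁻¹) := by group
      _ = b * (a * b) := by rw [hai, hbi]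
      _ = _ := by group
  obtain ⟨hLa, hLb⟩ := six_list a b haa hbb hab
  -- images of `Q`, `Q'`
  have hπQ : ∀ g (hg : g ∈ Q), π ⟨g, Subgroup.mem_sup_left hg⟩ = 1 ∨ π ⟨g, Subgroup.mem_sup_left hg⟩ = a := by
    intro g hg
    rcases p.h.comm g hg z' p.mem with e | e
    · left
      rw [hπ1]
      exact hU (mem_LU.2 ⟨hg, e⟩)
    · right
      symm
      apply hπeq
      apply hU
      refine mem_LU.2 ⟨Q.mul_mem (Q.inv_mem hq) hg, ?_⟩
      have hqz : q⁻¹ * z = z * q⁻¹ := (p.h.z_comm _ (Q.inv_mem hq))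
      have hqiz' : z' * q⁻¹ = q⁻¹ * (q * z') * q⁻¹ := by group
      show q⁻¹ * g * z' = z' * (q⁻¹ * g)
      have h3 : q⁻¹ * (q * z') = z' := by group
      have h4 : z' * q⁻¹ = z * (q⁻¹ * z') := by
        have h5 : z' * q⁻¹ = q⁻¹ * (q * z') * q⁻¹ := by group
        rw [h5, hqe]
        calc q⁻¹ * (z * (z' * q)) * q⁻¹ = (q⁻¹ * z) * z' := by group
          _ = (z * q⁻¹) * z' := by rw [hqz]
          _ = _ := by group
      calc q⁻¹ * g * z' = q⁻¹ * (g * z') := by group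
        _ = q⁻¹ * (z * (z' * g)) := by rw [e]
        _ = (q⁻¹ * z) * (z' * g) := by group
        _ = (z * q⁻¹) * (z' * g) := by rw [hqz]
        _ = z * ((q⁻¹ * z') * g) := by group
        _ = (z' * q⁻¹) * g := by rw [h4]; group
        _ = _ := by group
  have hπQ' : ∀ g (hg : g ∈ Q'), π ⟨g, Subgroup.mem_sup_right hg⟩ = 1 ∨ π ⟨g, Subgroup.mem_sup_right hg⟩ = b := by
    intro g hg
    rcases p.h'.comm g hg z p.mem' with e | e
    · left
      rw [hπ1]
      exact hU' (mem_LU.2 ⟨hg, e⟩)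
    · right
      symm
      apply hπeq
      apply hU'
      refine mem_LU.2 ⟨Q'.mul_mem (Q'.inv_mem hy) hg, ?_⟩
      have hqz : y⁻¹ * z' = z' * y⁻¹ := (p.h'.z_comm _ (Q'.inv_mem hy))
      show y⁻¹ * g * z = z * (y⁻¹ * g)
      have h4 : z * y⁻¹ = z' * (y⁻¹ * z) := by
        have h5 : z * y⁻¹ = y⁻¹ * (y * z) * y⁻¹ := by group
        rw [h5, hye]
        calc y⁻¹ * (z' * (z * y)) * y⁻¹ = (y⁻¹ * z') * z := by group
          _ = (z' * y⁻¹) * z := by rw [hqz]
          _ = _ := by group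
      calc y⁻¹ * g * z = y⁻¹ * (g * z) := by group
        _ = y⁻¹ * (z' * (z * g)) := by rw [e]
        _ = (y⁻¹ * z') * (z * g) := by group
        _ = (z' * y⁻¹) * (z * g) := by rw [hqz]
        _ = z' * ((y⁻¹ * z) * g) := by group
        _ = (z * y⁻¹) * g := by rw [h4]; group
        _ = _ := by group
  -- the list of six
  have hstep : ∀ g (hg : g ∈ (Q : Set G) ∪ Q') (u : G) (hgu : g * u ∈ X),
      (∀ hu : u ∈ X, (π ⟨u, hu⟩ = 1 ∨ π ⟨u, hu⟩ = a ∨ π ⟨u, hu⟩ = b ∨ π ⟨u, hu⟩ = a * b ∨ π ⟨u, hu⟩ = b * a ∨ π ⟨u, hu⟩ = a * b * a)) →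
      (π ⟨g * u, hgu⟩ = 1 ∨ π ⟨g * u, hgu⟩ = a ∨ π ⟨g * u, hgu⟩ = b ∨ π ⟨g * u, hgu⟩ = a * b ∨ π ⟨g * u, hgu⟩ = b * a ∨ π ⟨g * u, hgu⟩ = a * b * a) := by
    intro g hg u hgu hP
    have hgX : g ∈ X := by
      rcases hg with hg | hg
      · exact Subgroup.mem_sup_left hg
      · exact Subgroup.mem_sup_right hg
    have huX : u ∈ X := by
      have : u = g⁻¹ * (g * u) := by group
      rw [this]
      exact X.mul_mem (X.inv_mem hgX) hgu
    have hsplit : π ⟨g * u, hgu⟩ = π ⟨g, hgX⟩ * π ⟨u, huX⟩ := by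
      rw [← map_mul]
      rfl
    rw [hsplit]
    have hF := hP huX
    rcases hg with hg | hg
    · rcases hπQ g hg with e | e
      · have e' : π ⟨g, hgX⟩ = 1 := e
        rw [e', one_mul]
        exact hF
      · have e' : π ⟨g, hgX⟩ = a := e
        rw [e']
        exact hLa _ hF
    · rcases hπQ' g hg with e | e
      · have e' : π ⟨g, hgX⟩ = 1 := e
        rw [e', one_mul]
        exact hF
      · have e' : π ⟨g, hgX⟩ = b := e
        rw [e']
        exact hLb _ hF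
  have hlist : ∀ x : ↥X, (π x = 1 ∨ π x = a ∨ π x = b ∨ π x = a * b ∨ π x = b * a ∨ π x = a * b * a) := by
    have key : ∀ x (hc : x ∈ Subgroup.closure ((Q : Set G) ∪ Q')), ∀ hx : x ∈ X,
        (π ⟨x, hx⟩ = 1 ∨ π ⟨x, hx⟩ = a ∨ π ⟨x, hx⟩ = b ∨ π ⟨x, hx⟩ = a * b ∨ π ⟨x, hx⟩ = b * a ∨ π ⟨x, hx⟩ = a * b * a) := by
      intro x hc
      induction hc using Subgroup.closure_induction_left with
      | one =>
        intro hx
        left
        exact map_one π
      | mul_left g hg u _ ih =>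
        intro hx
        exact hstep g hg u hx ih
      | inv_mul_cancel g hg u _ ih =>
        intro hx
        have hg' : g⁻¹ ∈ (Q : Set G) ∪ Q' := by
          rcases hg with hg | hg
          · exact Or.inl (Q.inv_mem hg)
          · exact Or.inr (Q'.inv_mem hg)
        exact hstep g⁻¹ hg' u hx ih
    rintro ⟨x, hx⟩
    have hc : x ∈ Subgroup.closure ((Q : Set G) ∪ Q') := by
      rw [← Subgroup.sup_eq_closure]
      exact hx
    exact key x hc hx
  -- the kernel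
  have hRker : ∀ x ∈ R.subgroupOf X, φX x = 1 := by
    intro x hx
    rw [hkX]
    exact hRCV (Subgroup.mem_subgroupOf.1 hx)
  let φbar : (↥X ⧸ R.subgroupOf X) →* Equiv.Perm (Fin 3) := QuotientGroup.lift (R.subgroupOf X) φX hRker
  have hφbar : ∀ x : ↥X, φbar (π x) = φX x := fun x => rfl
  have hφa : φbar a = Equiv.swap 1 2 := by
    rw [ha, hφbar, hφq]
  have hφb : φbar b = Equiv.swap 0 2 := by
    rw [hb, hφbar, hφy]
  have hA : ∀ x (hx : x ∈ X), x ∈ CV → x ∈ R := by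
    intro x hx hxC
    have h1 : φX ⟨x, hx⟩ = 1 := (hkX ⟨x, hx⟩).2 hxC
    rw [← hφbar] at h1
    have h2 : π ⟨x, hx⟩ = 1 := by
      rcases hlist ⟨x, hx⟩ with e | e | e | e | e | e
      · exact e
      · exfalso
        rw [e, hφa] at h1
        revert h1
        decide
      · exfalso
        rw [e, hφb] at h1
        revert h1
        decide
      · exfalso
        rw [e, map_mul, hφa, hφb] at h1
        revert h1
        decide
      · exfalso
        rw [e, map_mul, hφa, hφb] at h1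
        revert h1
        decide
      · exfalso
        rw [e, map_mul, map_mul, hφa, hφb] at h1
        revert h1
        decide
    exact (hπ1 _).1 h2
  have hker : (R.subgroupOf X) = φX.ker := by
    ext x
    rw [Subgroup.mem_subgroupOf, MonoidHom.mem_ker]
    exact ⟨fun h => hRker x (Subgroup.mem_subgroupOf.2 h), fun h => hA x x.2 ((hkX x).1 h)⟩
  have hcX : ∀ c ∈ Subgroup.centralizer ({z} : Set G) ⊓ CV, ∀ r ∈ X, c * r * c⁻¹ ∈ X := by
    intro c hc
    have hc1 : c * z = z * c := Subgroup.mem_centralizer_singleton_iff.1 hc.1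
    have hc2 : c * z' = z' * c := hCVz' c hc.2
    apply conj_mem_sup
    · intro a ha
      exact Subgroup.mem_sup_left (p.h.norm c hc1 a ha)
    · intro a ha
      exact Subgroup.mem_sup_right (p.h'.norm c hc2 a ha)
  have hD : Subgroup.normalizer (V : Set G) = X ⊔ (Subgroup.centralizer ({z} : Set G) ⊓ CV) := by
    apply le_antisymm
    · intro n hn
      obtain ⟨x₁, hx₁⟩ := hsurj (φ ⟨n, hn⟩)
      have h1 : (x₁ : G)⁻¹ * n ∈ CV := by
        have h2 : φ (⟨(x₁ : G), hXN x₁.2⟩⁻¹ * ⟨n, hn⟩) = 1 := by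
          rw [map_mul, map_inv]
          have h3 : φ ⟨(x₁ : G), hXN x₁.2⟩ = φX x₁ := rfl
          rw [h3, hx₁]
          group
        exact (hk _).1 h2
      have e : n = x₁ * ((x₁ : G)⁻¹ * n) := by group
      rw [e]
      exact Subgroup.mul_mem _ (Subgroup.mem_sup_left x₁.2) (Subgroup.mem_sup_right ⟨hCVz h1, h1⟩)
    · refine sup_le hXN ?_
      intro c hc
      rw [Subgroup.mem_normalizer_iff]
      intro a
      constructor
      · intro ha
        have h1 : a * c = c * a := (Subgroup.mem_centralizer_iff.1 hc.2) a ha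
        rw [← h1]
        simpa using ha
      · intro ha
        have h1 := (Subgroup.mem_centralizer_iff.1 hc.2) _ ha
        have h2 : c * a * c⁻¹ = a := by
          have h4 : c * a = c * (c * a * c⁻¹) := by rw [← h1]; group
          exact (mul_left_cancel h4).symm
        rwa [h2] at ha
  have hXCV : ∀ x ∈ X, ∀ c ∈ CV, x * c * x⁻¹ ∈ CV := by
    intro x hx c hc
    rw [hCV, Subgroup.mem_centralizer_iff]
    intro v hv
    have h1 : x⁻¹ ∈ Subgroup.normalizer (V : Set G) := Subgroup.inv_mem _ (hXN hx)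
    have h2 := (Subgroup.mem_normalizer_iff.1 h1 v).1 hv
    have h3 := (Subgroup.mem_centralizer_iff.1 hc) _ h2
    calc v * (x * c * x⁻¹) = x * ((x⁻¹ * v * x⁻¹⁻¹) * c) * x⁻¹ := by group
      _ = x * (c * (x⁻¹ * v * x⁻¹⁻¹)) * x⁻¹ := by rw [h3]
      _ = _ := by group
  have hF : R ≤ Subgroup.centralizer ({z} : Set G) ⊓ CV := le_inf (le_trans hRCV hCVz) hRCV
  refine ⟨?_, ?_, ⟨hRn, ⟨?_⟩⟩, hD, ?_, hF, ?_, ?_⟩
  · exact le_antisymm (le_inf hRX hRCV) (fun x hx => hA x hx.1 hx.2)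
  · apply le_antisymm
    · intro x hx
      refine ⟨⟨x, hRX hx⟩, ?_, rfl⟩
      have hp : IsPGroup 2 ↥(R.subgroupOf X) := by
        intro c
        refine ⟨2, ?_⟩
        apply Subtype.ext
        apply Subtype.ext
        have h1 := p.R_pow_four (Subgroup.mem_subgroupOf.1 c.2)
        simpa using h1
      exact Cfsg.Agent.H01.le_pCore hRn hp (Subgroup.mem_subgroupOf.2 hx)
    · rintro _ ⟨c, hc, rfl⟩
      apply hA _ c.2
      rw [← hkX]
      by_contra hne
      obtain ⟨ρ, hρ1, hρ2⟩ := perm3_core _ hne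
      obtain ⟨x₁, hx₁⟩ := hsurj ρ
      haveI : Fact (Nat.Prime 2) := ⟨Nat.prime_two⟩
      have hnorm := Cfsg.Agent.H01.pCore_normal (G := ↥X) 2
      have hc₂ : c * (x₁ * c * x₁⁻¹) ∈ Cfsg.pCore 2 ↥X :=
        Subgroup.mul_mem _ hc (hnorm.conj_mem c hc x₁)
      obtain ⟨k, hk'⟩ := Cfsg.Agent.H01.pCore_isPGroup (G := ↥X) 2 ⟨_, hc₂⟩
      have h1 : (c * (x₁ * c * x₁⁻¹)) ^ 2 ^ k = 1 := by
        have := congrArg Subtype.val hk'
        simpa using this
      have h2 : (φX c * (ρ * φX c * ρ⁻¹)) ^ 2 ^ k = 1 := by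
        have := congrArg φX h1
        rw [map_pow, map_mul, map_mul, map_mul, map_inv, hx₁, map_one] at this
        exact this
      have h3 : orderOf (φX c * (ρ * φX c * ρ⁻¹)) ∣ 2 ^ k := orderOf_dvd_of_pow_eq_one h2
      have h4 : orderOf (φX c * (ρ * φX c * ρ⁻¹)) ∣ 3 := orderOf_dvd_of_pow_eq_one hρ1
      have h5 : Nat.Coprime (2 ^ k) 3 := Nat.Coprime.pow_left k (by norm_num)
      have h6 := Nat.eq_one_of_dvd_coprimes h5 h3 h4
      exact hρ2 (orderOf_eq_one_iff.1 h6)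
  · exact (QuotientGroup.quotientMulEquivOfEq hker).trans (QuotientGroup.quotientKerEquivOfSurjective φX hsurj)
  · intro y hy x hx
    rw [hD] at hy
    refine conj_sup_mem X X _ ?_ hcX y hy x hx
    intro a ha r hr
    exact X.mul_mem (X.mul_mem ha hr) (X.inv_mem ha)
  · intro x hx c hc
    apply hA
    · have : x * c * x⁻¹ * c⁻¹ = x * (c * x⁻¹ * c⁻¹) := by group
      rw [this]
      exact X.mul_mem hx (hcX c hc _ (X.inv_mem hx))
    · exact CV.mul_mem (hXCV x hx c hc.2) (CV.inv_mem hc.2)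
  · apply le_antisymm
    · intro x hx
      exact hA x hx.1 hx.2.2
    · exact le_inf hRX hF

end E

end Cfsg.Agent.H25
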