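import Cfsg.Agent.Lib.H25.TTLines

/-! The dual affine plane of order two and the affine plane of order three as models. -/

set_option autoImplicit false

namespace Cfsg.Agent.H25

open Cfsg Cfsg.LineSystem

abbrev P4T := Equiv.Perm (Fin 4)

def trT : Fin 6 → P4T :=
  ![Equiv.swap 0 1, Equiv.swap 2 3, Equiv.swap 0 2, Equiv.swap 1 3, Equiv.swap 0 3, Equiv.swap 1 2]

def sgT : Fin 6 → P4T :=
  ![1, Equiv.swap 0 2 * Equiv.swap 1 3, Equiv.swap 1 2, Equiv.swap 0 3, Equiv.swap 1 3, Equiv.swap 0 2]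

def pairT : Fin 6 → Finset (Fin 4) := ![{0,1},{2,3},{0,2},{1,3},{0,3},{1,2}]

def thirdT (a b : Fin 6) : Fin 6 :=
  (![![0,0,5,4,3,2],![1,1,4,5,2,3],![5,4,2,2,1,0],![4,5,3,3,0,1],![3,2,1,0,4,4],![2,3,0,1,5,5]] : Fin 6 → Fin 6 → Fin 6) a b

def collT (a b : Fin 6) : Prop := trT a * trT b ≠ trT b * trT a

instance : DecidableRel collT := fun a b => by unfold collT; infer_instance

theorem trT_conj : ∀ a, trT a = sgT a * Equiv.swap 0 1 * (sgT a)⁻¹ := by decide

theorem trT_third : ∀ a b, collT a b → trT (thirdT a b) = trT b * trT a * trT b := by decide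

theorem trT_inj : Function.Injective trT := by decide

theorem pairT_card : ∀ i, (pairT i).card = 2 := by decide

def gD0 : Fin 6 → DualAffinePoint := fun i => ⟨pairT i, pairT_card i⟩

theorem gD0_bij : Function.Bijective gD0 := by
  constructor
  · intro i j h
    have h1 : pairT i = pairT j := congrArg Subtype.val h
    revert i j
    decide
  · rintro ⟨s, hs⟩
    have : ∀ s : Finset (Fin 4), s.card = 2 → ∃ i, pairT i = s := by decide
    obtain ⟨i, hi⟩ := this s hs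
    exact ⟨i, Subtype.ext hi⟩

noncomputable def gD : Fin 6 ≃ DualAffinePoint := Equiv.ofBijective gD0 gD0_bij

theorem gD_val (i : Fin 6) : ((gD i).val : Finset (Fin 4)) = pairT i := rfl

theorem gD_image (a b c : Fin 6) (i : Fin 4) (h : ∀ k, (k = a ∨ k = b ∨ k = c) ↔ i ∉ pairT k) :
    (gD '' {a, b, c} : Set DualAffinePoint) = {s | i ∉ s.val} := by
  ext s
  obtain ⟨k, rfl⟩ := gD.surjective s
  constructor
  · rintro ⟨j, hj, hjk⟩
    have hj' := gD.injective hjk
    subst hj'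
    simp only [Set.mem_insert_iff, Set.mem_singleton_iff] at hj
    exact (h j).mp hj
  · intro hk
    have := (h k).mpr hk
    exact ⟨k, by simpa using this, rfl⟩

theorem gD_M1 : ∀ a b, collT a b → gD '' {a, b, thirdT a b} ∈ dualAffinePlaneTwo := by
  intro a b hab
  have : ∀ a b, collT a b → ∃ i : Fin 4, ∀ k, (k = a ∨ k = b ∨ k = thirdT a b) ↔ i ∉ pairT k := by decide
  obtain ⟨i, hi⟩ := this a b hab
  exact ⟨i, gD_image _ _ _ i hi⟩

theorem gD_M2 : ∀ m ∈ dualAffinePlaneTwo, ∃ a b, collT a b ∧ m = gD '' {a, b, thirdT a b} := by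
  rintro m ⟨i, rfl⟩
  have : ∀ i : Fin 4, ∃ a b, collT a b ∧ ∀ k, (k = a ∨ k = b ∨ k = thirdT a b) ↔ i ∉ pairT k := by decide
  obtain ⟨a, b, hab, h⟩ := this i
  exact ⟨a, b, hab, (gD_image _ _ _ i h).symm⟩

/-- Models of the two planes: coverage for the affine plane. -/
abbrev X9 := ZMod 3 × ZMod 3

def lst9 : List (X9 × X9 × X9) :=
  [((0,0),(1,0),(2,0)), ((0,0),(0,1),(0,2)), ((1,0),(0,1),(2,2)), ((1,0),(0,2),(2,1)),
   ((2,0),(0,1),(1,2)), ((2,0),(0,2),(1,1)), ((0,0),(2,2),(1,1)), ((0,0),(2,1),(1,2)),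
   ((1,0),(1,1),(1,2)), ((2,0),(2,2),(2,1)), ((0,1),(1,1),(2,1)), ((0,2),(2,2),(1,2))]

theorem cover9 : ∀ a b : X9, a ≠ b → ∃ t ∈ lst9,
    t = (a, b, -a - b) ∨ t = (b, a, -a - b) ∨ t = (b, -a - b, a) ∨ t = (-a - b, b, a) ∨
      t = (-a - b, a, b) ∨ t = (a, -a - b, b) := by
  decide

abbrev g9 : X9 ≃ (Fin 2 → ZMod 3) := (finTwoArrowEquiv (ZMod 3)).symm

theorem g9_apply (a : X9) (i : Fin 2) : g9 a i = ![a.1, a.2] i := rfl

theorem g9_third (a b : X9) : g9 (-a - b) = - g9 a - g9 b := by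
  funext i
  fin_cases i <;> simp [g9_apply]

theorem eq_line_aux (A B : Fin 2 → ZMod 3) (x : Fin 2 → ZMod 3) :
    (x = A ∨ x = B ∨ x = -A - B) ↔ ∃ c : ZMod 3, x = A + c • (B - A) := by
  have h0 : ∀ p q : ZMod 3, p + 2 * (q - p) = -p - q := by decide
  have e2 : A + (2 : ZMod 3) • (B - A) = -A - B := by
    funext i
    simp only [Pi.add_apply, Pi.smul_apply, Pi.sub_apply, Pi.neg_apply, smul_eq_mul]
    exact h0 _ _
  have e1 : A + (1 : ZMod 3) • (B - A) = B := by
    rw [one_smul]; abel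
  have e0 : A + (0 : ZMod 3) • (B - A) = A := by
    rw [zero_smul, add_zero]
  constructor
  · rintro (h | h | h)
    · exact ⟨0, by rw [e0, h]⟩
    · exact ⟨1, by rw [e1, h]⟩
    · exact ⟨2, by rw [e2, h]⟩
  · rintro ⟨c, h⟩
    have hz3 : ∀ c : ZMod 3, c = 0 ∨ c = 1 ∨ c = 2 := by decide
    rcases hz3 c with rfl | rfl | rfl
    · left; rw [h, e0]
    · right; left; rw [h, e1]
    · right; right; rw [h, e2]

theorem g9_image (a b : X9) :
    (g9 '' {a, b, -a - b} : Set (Fin 2 → ZMod 3)) = {x | ∃ c : ZMod 3, x = g9 a + c • (g9 b - g9 a)} := by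
  ext x
  simp only [Set.mem_ofPred_eq, ← eq_line_aux]
  rw [← g9_third, Equiv.image_eq_preimage_symm]
  simp only [Set.mem_preimage, Set.mem_insert_iff, Set.mem_singleton_iff]
  constructor
  · rintro (h | h | h)
    · left; rw [← h, g9.apply_symm_apply]
    · right; left; rw [← h, g9.apply_symm_apply]
    · right; right; rw [← h, g9.apply_symm_apply]
  · rintro (h | h | h)
    · left; rw [h, g9.symm_apply_apply]
    · right; left; rw [h, g9.symm_apply_apply]
    · right; right; rw [h, g9.symm_apply_apply]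

theorem g9_M1 : ∀ a b : X9, a ≠ b → g9 '' {a, b, -a - b} ∈ affinePlaneThree := by
  intro a b hab
  refine ⟨g9 a, g9 b - g9 a, ?_, g9_image a b⟩
  intro h
  apply hab
  exact g9.injective (sub_eq_zero.mp h).symm

theorem g9_M2 : ∀ m ∈ affinePlaneThree, ∃ a b : X9, a ≠ b ∧ m = g9 '' {a, b, -a - b} := by
  rintro m ⟨v, w, hw, rfl⟩
  refine ⟨g9.symm v, g9.symm (v + w), ?_, ?_⟩
  · intro h
    apply hw
    have := g9.symm.injective h
    exact left_eq_add.mp this
  · rw [g9_image, g9.apply_symm_apply, g9.apply_symm_apply, add_sub_cancel_left]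

end Cfsg.Agent.H25
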