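import Cfsg.Agent.Lib.H25.TTDual

/-!
Fischer spaces: the maps `t(x)` restricted to a plane, via models.
-/

set_option autoImplicit false

namespace Cfsg.Agent.H25

open Cfsg Cfsg.LineSystem

def TTm {Z : Type*} (coll : Z → Z → Prop) [DecidableRel coll] (third : Z → Z → Z) (a b : Z) : Z :=
  if coll a b then third a b else b

abbrev T6 := TTm collT thirdT
abbrev T9 := TTm (fun a b : X9 => a ≠ b) (fun a b => -a - b)

set_option maxRecDepth 100000 in
theorem d0 : ∀ a b, collT a b → a ≠ b ∧ thirdT a b ≠ a ∧ thirdT a b ≠ b := by decide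
set_option maxRecDepth 100000 in
theorem d0' : ∀ a' b' a b, collT a' b' → (a = a' ∨ a = b' ∨ a = thirdT a' b') → (b = a' ∨ b = b' ∨ b = thirdT a' b') → a ≠ b → collT a b := by decide
set_option maxRecDepth 100000 in
theorem d1 : ∀ a b, collT a b → ∀ c, T6 a (T6 b (T6 a (T6 b (T6 a (T6 b c))))) = c := by decide
set_option maxRecDepth 100000 in
theorem d2 : ∀ a b, a ≠ b → ¬ collT a b → ∀ c, T6 a (T6 b c) = T6 b (T6 a c) := by decide
set_option maxRecDepth 100000 in
theorem d3 : ∀ a b c, collT b c → collT (T6 a b) (T6 a c) ∧ T6 a (thirdT b c) = thirdT (T6 a b) (T6 a c) := by decide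

set_option maxRecDepth 100000 in
theorem a0 : ∀ a b : X9, a ≠ b → a ≠ b ∧ -a - b ≠ a ∧ -a - b ≠ b := by decide
set_option maxRecDepth 100000 in
theorem a1 : ∀ a b : X9, a ≠ b → ∀ c, T9 a (T9 b (T9 a (T9 b (T9 a (T9 b c))))) = c := by decide
set_option maxRecDepth 100000 in
theorem a3 : ∀ a b c : X9, b ≠ c → (T9 a b ≠ T9 a c) ∧ T9 a (-b - c) = -(T9 a b) - (T9 a c) := by decide

variable {X : Type*} {L : Set (Set X)}

theorem three_points (hL : IsFischerSpace L) {l : Set X} (hl : l ∈ L) {x y : X} (hx : x ∈ l) (hy : y ∈ l)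
    (hxy : x ≠ y) : ∃ z, z ≠ x ∧ z ≠ y ∧ l = {x, y, z} := by
  obtain ⟨a, b, c, hab, hac, hbc, rfl⟩ := Set.ncard_eq_three.mp (hL.2.1 l hl)
  simp only [Set.mem_insert_iff, Set.mem_singleton_iff] at hx hy
  rcases hx with rfl | rfl | rfl <;> rcases hy with rfl | rfl | rfl
  · exact absurd rfl hxy
  · exact ⟨c, hac.symm, hbc.symm, rfl⟩
  · exact ⟨b, hab.symm, hbc, by ext w; simp only [Set.mem_insert_iff, Set.mem_singleton_iff]; tauto⟩
  · exact ⟨c, hbc.symm, hac.symm, by ext w; simp only [Set.mem_insert_iff, Set.mem_singleton_iff]; tauto⟩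
  · exact absurd rfl hxy
  · exact ⟨a, hab, hac, by ext w; simp only [Set.mem_insert_iff, Set.mem_singleton_iff]; tauto⟩
  · exact ⟨b, hbc, hab.symm, by ext w; simp only [Set.mem_insert_iff, Set.mem_singleton_iff]; tauto⟩
  · exact ⟨a, hac, hab, by ext w; simp only [Set.mem_insert_iff, Set.mem_singleton_iff]; tauto⟩
  · exact absurd rfl hxy

theorem lineMap_eq (hL : IsFischerSpace L) {x y z : X} (h : ({x, y, z} : Set X) ∈ L) (hzx : z ≠ x)
    (hzy : z ≠ y) (hxy : x ≠ y) : lineMap L x y = z := by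
  have hex : ∃ z : X, z ≠ x ∧ z ≠ y ∧ x ≠ y ∧ ({x, y, z} : Set X) ∈ L := ⟨z, hzx, hzy, hxy, h⟩
  unfold lineMap
  rw [dif_pos hex]
  obtain ⟨h1, h2, -, h4⟩ := hex.choose_spec
  have e : ({x, y, hex.choose} : Set X) = {x, y, z} :=
    hL.1 _ h4 _ h x y hxy (by simp) (by simp) (by simp) (by simp)
  have : hex.choose ∈ ({x, y, z} : Set X) := by rw [← e]; simp
  simp only [Set.mem_insert_iff, Set.mem_singleton_iff] at this
  rcases this with h5 | h5 | h5
  · exact absurd h5 h1
  · exact absurd h5 h2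
  · exact h5

theorem lineMap_of_not {x y : X} (hn : ¬ LineSystem.Collinear L x y) : lineMap L x y = y := by
  unfold lineMap
  rw [dif_neg]
  rintro ⟨z, -, -, hxy, h⟩
  exact hn ⟨hxy, _, h, by simp, by simp⟩

theorem exists_third (hL : IsFischerSpace L) {x y : X} (h : LineSystem.Collinear L x y) :
    ∃ z, z ≠ x ∧ z ≠ y ∧ ({x, y, z} : Set X) ∈ L ∧ lineMap L x y = z ∧ lineMap L x z = y := by
  obtain ⟨hxy, l, hl, hx, hy⟩ := h
  obtain ⟨z, hzx, hzy, rfl⟩ := three_points hL hl hx hy hxy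
  refine ⟨z, hzx, hzy, hl, lineMap_eq hL hl hzx hzy hxy, ?_⟩
  have e : ({x, y, z} : Set X) = {x, z, y} := by
    ext w; simp only [Set.mem_insert_iff, Set.mem_singleton_iff]; tauto
  rw [e] at hl
  exact lineMap_eq hL hl hxy.symm hzy.symm hzx.symm

theorem lineMap_invol (hL : IsFischerSpace L) (x y : X) : lineMap L x (lineMap L x y) = y := by
  by_cases h : LineSystem.Collinear L x y
  · obtain ⟨z, -, -, -, h1, h2⟩ := exists_third hL h
    rw [h1, h2]
  · rw [lineMap_of_not h, lineMap_of_not h]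

theorem collinear_symm {x y : X} (h : LineSystem.Collinear L x y) : LineSystem.Collinear L y x := by
  obtain ⟨hxy, l, hl, hx, hy⟩ := h
  exact ⟨hxy.symm, l, hl, hy, hx⟩

/-- What happens in a plane. -/
structure GoodPlane (L : Set (Set X)) (S : Set X) : Prop where
  stable : ∀ x ∈ S, ∀ w ∈ S, lineMap L x w ∈ S
  order3 : ∀ x ∈ S, ∀ y ∈ S, LineSystem.Collinear L x y → ∀ w ∈ S,
    lineMap L x (lineMap L y (lineMap L x (lineMap L y (lineMap L x (lineMap L y w))))) = w
  comm : ∀ x ∈ S, ∀ y ∈ S, x ≠ y → ¬ LineSystem.Collinear L x y → ∀ w ∈ S,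
    lineMap L x (lineMap L y w) = lineMap L y (lineMap L x w)
  line : ∀ x ∈ S, ∀ k ∈ L, k ⊆ S → lineMap L x '' k ∈ L

section Generic

variable {Z : Type*} (coll : Z → Z → Prop) [DecidableRel coll] (third : Z → Z → Z)

theorem goodPlane_of_model (hL : IsFischerSpace L) {S : Set X} (hS : IsSubspace L S) (e : S ≃ Z)
    (hA : ∀ a b, coll a b → (Subtype.val ∘ e.symm) '' {a, b, third a b} ∈ L)
    (hB : ∀ k ∈ L, k ⊆ S → ∃ a b, coll a b ∧ k = (Subtype.val ∘ e.symm) '' {a, b, third a b})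
    (Z0 : ∀ a b, coll a b → a ≠ b ∧ third a b ≠ a ∧ third a b ≠ b)
    (Z0' : ∀ a' b' a b, coll a' b' → (a = a' ∨ a = b' ∨ a = third a' b') → (b = a' ∨ b = b' ∨ b = third a' b') →
      a ≠ b → coll a b)
    (Z1 : ∀ a b, coll a b → ∀ c, TTm coll third a (TTm coll third b (TTm coll third a (TTm coll third b
      (TTm coll third a (TTm coll third b c))))) = c)
    (Z2 : ∀ a b, a ≠ b → ¬ coll a b → ∀ c, TTm coll third a (TTm coll third b c) = TTm coll third b (TTm coll third a c))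
    (Z3 : ∀ a b c, coll b c → coll (TTm coll third a b) (TTm coll third a c) ∧
      TTm coll third a (third b c) = third (TTm coll third a b) (TTm coll third a c)) :
    GoodPlane L S := by
  classical
  set f : Z → X := Subtype.val ∘ e.symm with hf
  have hfinj : Function.Injective f := Subtype.val_injective.comp e.symm.injective
  have hfS : ∀ a, f a ∈ S := fun a => (e.symm a).2
  have hsurj : ∀ x ∈ S, ∃ a, f a = x := by
    intro x hx
    exact ⟨e ⟨x, hx⟩, by simp [hf]⟩
  have himg : ∀ a b c : Z, f '' {a, b, c} = {f a, f b, f c} := by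
    intro a b c
    simp [Set.image_insert_eq, Set.image_singleton]
  -- coll is collinearity
  have hcoll : ∀ a b, LineSystem.Collinear L (f a) (f b) ↔ coll a b := by
    intro a b
    constructor
    · rintro ⟨hne, l, hl, h1, h2⟩
      have hab : a ≠ b := fun h => hne (by rw [h])
      have hlS : l ⊆ S := hS l hl _ (hfS a) _ (hfS b) hne h1 h2
      obtain ⟨a', b', hc', rfl⟩ := hB l hl hlS
      rw [himg] at h1 h2
      simp only [Set.mem_insert_iff, Set.mem_singleton_iff, hfinj.eq_iff] at h1 h2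
      exact Z0' a' b' a b hc' h1 h2 hab
    · intro hab
      have h1 := hA a b hab
      refine ⟨fun h => (Z0 a b hab).1 (hfinj h), _, h1, ?_, ?_⟩
      · exact ⟨a, by simp, rfl⟩
      · exact ⟨b, by simp, rfl⟩
  have hT : ∀ a b, lineMap L (f a) (f b) = f (TTm coll third a b) := by
    intro a b
    by_cases hab : coll a b
    · have h1 := hA a b hab
      rw [himg] at h1
      obtain ⟨h2, h3, h4⟩ := Z0 a b hab
      rw [TTm, if_pos hab]
      exact lineMap_eq hL h1 (fun h => h3 (hfinj h)) (fun h => h4 (hfinj h)) (fun h => h2 (hfinj h))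
    · rw [TTm, if_neg hab]
      exact lineMap_of_not (fun h => hab ((hcoll a b).mp h))
  refine ⟨?_, ?_, ?_, ?_⟩
  · intro x hx w hw
    obtain ⟨a, rfl⟩ := hsurj x hx
    obtain ⟨c, rfl⟩ := hsurj w hw
    rw [hT]
    exact hfS _
  · intro x hx y hy hxy w hw
    obtain ⟨a, rfl⟩ := hsurj x hx
    obtain ⟨b, rfl⟩ := hsurj y hy
    obtain ⟨c, rfl⟩ := hsurj w hw
    simp only [hT]
    rw [Z1 a b ((hcoll a b).mp hxy)]
  · intro x hx y hy hne hxy w hw
    obtain ⟨a, rfl⟩ := hsurj x hx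
    obtain ⟨b, rfl⟩ := hsurj y hy
    obtain ⟨c, rfl⟩ := hsurj w hw
    simp only [hT]
    have hab : a ≠ b := fun h => hne (by rw [h])
    rw [Z2 a b hab (fun h => hxy ((hcoll a b).mpr h))]
  · intro x hx k hk hkS
    obtain ⟨a, rfl⟩ := hsurj x hx
    obtain ⟨b, c, hbc, rfl⟩ := hB k hk hkS
    rw [himg]
    simp only [Set.image_insert_eq, Set.image_singleton, hT]
    obtain ⟨h1, h2⟩ := Z3 a b c hbc
    rw [h2]
    have := hA _ _ h1
    rw [himg] at this
    exact this

theorem model_of_iso {Y : Type*} {S : Set X} (e0 : S ≃ Y) (g : Z ≃ Y) (M : Set (Set Y))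
    (hiso : IsIso (restrict L S) M e0)
    (M1 : ∀ a b, coll a b → g '' {a, b, third a b} ∈ M)
    (M2 : ∀ m ∈ M, ∃ a b, coll a b ∧ m = g '' {a, b, third a b}) :
    (∀ a b, coll a b → (Subtype.val ∘ (e0.trans g.symm).symm) '' {a, b, third a b} ∈ L) ∧
    (∀ k ∈ L, k ⊆ S → ∃ a b, coll a b ∧ k = (Subtype.val ∘ (e0.trans g.symm).symm) '' {a, b, third a b}) := by
  classical
  have key : ∀ (k : Set X), k ⊆ S → ∀ T : Set Z,
      e0 '' {x : S | (x : X) ∈ k} = g '' T →
      k = (Subtype.val ∘ (e0.trans g.symm).symm) '' T := by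
    intro k hk T h
    ext w
    constructor
    · intro hw
      have hw' : e0 ⟨w, hk hw⟩ ∈ g '' T := by
        rw [← h]; exact ⟨⟨w, hk hw⟩, hw, rfl⟩
      obtain ⟨t, ht, hte⟩ := hw'
      refine ⟨t, ht, ?_⟩
      simp only [Function.comp, Equiv.symm_trans_apply, Equiv.symm_symm]
      rw [hte]
      simp
    · rintro ⟨t, ht, rfl⟩
      have h1 : g t ∈ e0 '' {x : S | (x : X) ∈ k} := by
        rw [h]; exact ⟨t, ht, rfl⟩
      obtain ⟨x, hx, hxe⟩ := h1
      simp only [Function.comp, Equiv.symm_trans_apply, Equiv.symm_symm]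
      rw [← hxe]
      simpa using hx
  constructor
  · intro a b hab
    have h1 := M1 a b hab
    set T : Set S := e0 ⁻¹' (g '' {a, b, third a b}) with hT
    have h2 : e0 '' T = g '' {a, b, third a b} := by
      rw [hT, Set.image_preimage_eq _ e0.surjective]
    have h3 : T ∈ restrict L S := by
      rw [hiso T, h2]; exact h1
    obtain ⟨k, hk, hkS, hTk⟩ := h3
    rw [← key k hkS _ (by rw [← hTk]; exact h2)]
    exact hk
  · intro k hk hkS
    have h1 : {x : S | (x : X) ∈ k} ∈ restrict L S := ⟨k, hk, hkS, rfl⟩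
    rw [hiso] at h1
    obtain ⟨a, b, hab, h2⟩ := M2 _ h1
    exact ⟨a, b, hab, key k hkS _ h2⟩

end Generic

theorem goodPlane_span (hL : IsFischerSpace L) {l m : Set X} (hl : l ∈ L) (hm : m ∈ L) (hlm : l ≠ m)
    (hne : (l ∩ m).Nonempty) : GoodPlane L (span L (l ∪ m)) := by
  have hS := isSubspace_span L (l ∪ m)
  rcases hL.2.2 l hl m hm hlm hne with ⟨e0, he0⟩ | ⟨e0, he0⟩
  · obtain ⟨hA, hB⟩ := model_of_iso collT thirdT e0 gD dualAffinePlaneTwo he0 gD_M1 gD_M2
    exact goodPlane_of_model collT thirdT hL hS _ hA hB d0 d0' d1 d2 d3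
  · obtain ⟨hA, hB⟩ := model_of_iso (fun a b : X9 => a ≠ b) (fun a b => -a - b) e0 g9 affinePlaneThree he0 g9_M1 g9_M2
    refine goodPlane_of_model (fun a b : X9 => a ≠ b) (fun a b => -a - b) hL hS _ hA hB a0 ?_ a1 ?_ a3
    · intro a' b' a b _ _ _ h
      exact h
    · intro a b h h'
      exact absurd h h'

end Cfsg.Agent.H25
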